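import Cfsg.Agent.FourGen42.Main

/-!
Every subgroup has at most sixteen cosets modulo a subgroup containing its squares.
-/

namespace CfsgLib.FourGen42

open Subgroup

namespace Setup.Frame

variable {P : Type*} [Group P] [Finite P] {S : Setup P} (F : S.Frame)

include F in
theorem no_good_lift {H J : Subgroup P} (hJH : J ≤ H) (hJ : ∀ h ∈ H, h ^ 2 ∈ J)
    (hr : 4 ≤ J.relIndex (H ⊓ S.C)) {x : P} (hxH : x ∈ H) (hx : x ∈ S.N) (hg : Good (F.mat x))
    (hc : F.Central x) : False := by
  set D := H ⊓ S.C
  have hDC : D ≤ S.C := inf_le_right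
  let R := closure ((fun d : P => d ^ 2) '' (D : Set P))
  have hRJ : R ≤ J ⊓ D := by
    rw [closure_le]
    rintro _ ⟨d, hd, rfl⟩
    exact ⟨hJ d hd.1, pow_mem hd 2⟩
  have hRidx : R.relIndex D ≤ 4 :=
    le_trans (S.relIndex_le hDC fun d hd => subset_closure ⟨d, hd, rfl⟩) S.card_W_le
  have heq : J ⊓ D ≤ R := by
    have h1 := relIndex_mul_relIndex R (J ⊓ D) D hRJ inf_le_right
    rw [inf_relIndex_right] at h1
    have h0 : R.relIndex (J ⊓ D) ≠ 0 := (R.subgroupOf (J ⊓ D)).index_ne_zero_of_finite
    refine relIndex_eq_one.mp ?_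
    by_contra hne1
    have h2 : 2 ≤ R.relIndex (J ⊓ D) := by omega
    nlinarith
  have hx2 : x ^ 2 ∈ J ⊓ D := ⟨hJ x hxH, pow_mem hxH 2, F.sq_mem_N hx⟩
  have hnorm : ∀ d ∈ D, x⁻¹ * d * x ∈ D := fun d hd =>
    ⟨H.mul_mem (H.mul_mem (H.inv_mem hxH) hd.1) hxH, S.conj_inv_mem_C x hd.2⟩
  have hcomm8 : ∀ c ∈ S.C, c ^ 8 = 1 → c * x ^ 2 = x ^ 2 * c := by
    intro c hc h8
    suffices h : ∀ r ∈ R, r * c = c * r from (h _ (heq hx2)).symm
    intro r hr
    induction hr using closure_induction with
    | mem r hr =>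
      obtain ⟨d, hd, rfl⟩ := hr
      obtain ⟨u, hu, e, -⟩ := prod_sq hc hd.2 h8
      have hud : u * d = d * u := S.comm_W (S.C_le_N hd.2) hu
      show d ^ 2 * c = c * d ^ 2
      calc d ^ 2 * c = d * (d * c) := by simp [pow_two, mul_assoc]
        _ = d * (c * d * u) := by rw [e]
        _ = (d * c) * (d * u) := by simp [mul_assoc]
        _ = c * d * (u * d) * u := by rw [e]; simp [mul_assoc]
        _ = c * d * d * (u * u) := by rw [hud]; simp [mul_assoc]
        _ = c * d ^ 2 := by rw [← pow_two u, hu.2, pow_two]; simp [mul_assoc]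
    | one => simp
    | mul a b _ _ ha hb => rw [mul_assoc, hb, ← mul_assoc, ha, mul_assoc]
    | inv a _ ha => exact (Commute.inv_left (show Commute a c from ha)).eq
  have hne : ∃ v, v ∉ F.imageEight := by
    obtain ⟨v, hv⟩ := good_not_idem _ hg
    refine ⟨v, ?_⟩
    rintro ⟨c, hc, h8, rfl⟩
    exact hv (F.app_idem hx hc h8 (hcomm8 c hc h8))
  have hC := F.comm_of_not_full hne
  refine F.no_good hx hg hc hDC (fun a ha b hb => hC a (hDC ha) b (hDC hb)) hnorm ?_
    (inf_le_right : J ⊓ D ≤ D) (by rw [inf_relIndex_right]; exact hr) hx2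
  intro d hd
  refine ⟨?_, mul_mem (hnorm d hd) hd⟩
  have e : x⁻¹ * d * x * d = (x⁻¹ * d) ^ 2 * (d⁻¹ * x * d) ^ 2 := by simp [pow_two, mul_assoc]
  rw [e]
  exact mul_mem (hJ _ (mul_mem (inv_mem hxH) hd.1))
    (hJ _ (mul_mem (mul_mem (inv_mem hd.1) hxH) hd.1))

include F in
theorem relIndex_le_sixteen {H J : Subgroup P} (hJH : J ≤ H) (hJ : ∀ h ∈ H, h ^ 2 ∈ J) :
    J.relIndex H ≤ 16 := by
  by_contra hlt
  push Not at hlt
  set D := H ⊓ S.C with hD
  have hDH : D ≤ H := inf_le_left
  set HN := H ⊓ S.N with hHN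
  have hHNN : HN ≤ S.N := inf_le_right
  set U := F.image HN hHNN with hU
  have hr : J.relIndex D ≤ 4 :=
    le_trans (S.relIndex_le inf_le_right fun d hd => hJ d (hDH hd)) S.card_W_le
  obtain ⟨k, hk⟩ := S.relIndex_cases (D := D) (J := J)
  rw [index_split hJH hJ hDH] at hlt
  set q := (D ⊔ J).relIndex H with hq
  have hU16 : Nat.card U ≤ 16 := by
    have := Nat.le_of_dvd Nat.card_pos U.card_addSubgroup_dvd_card
    simpa using this
  have hDU : D.relIndex HN = Nat.card U := by
    rw [← F.card_image HN hHNN, ← inf_relIndex_right S.C HN]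
    congr 1
    rw [hHN, hD]
    exact le_antisymm (le_inf inf_le_right (le_inf inf_le_left (inf_le_right.trans S.C_le_N)))
      (le_inf (inf_le_right.trans inf_le_left) inf_le_left)
  have hqD : D.relIndex (D ⊔ J) * q = D.relIndex H :=
    relIndex_mul_relIndex _ _ _ le_sup_left (sup_le hDH hJH)
  have h0 : D.relIndex (D ⊔ J) ≠ 0 := (D.subgroupOf (D ⊔ J)).index_ne_zero_of_finite
  have hr4 : J.relIndex D ≤ 4 ∧ (2 < J.relIndex D → J.relIndex D = 4) := by
    refine ⟨hr, fun h => ?_⟩
    rw [hk] at hr h ⊢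
    rcases k with _ | _ | _ | k
    · norm_num at h
    · norm_num at h
    · norm_num
    · have : 2 ^ 3 ≤ 2 ^ (k + 1 + 1 + 1) := Nat.pow_le_pow_right (by norm_num) (by omega)
      omega
  by_cases hHle : H ≤ S.N
  · have e : HN = H := inf_eq_left.mpr hHle
    have hDH' : D.relIndex H = Nat.card U := (congrArg D.relIndex e.symm).trans hDU
    rw [hDH'] at hqD
    have hqU : q ≤ Nat.card U := by
      calc q = 1 * q := (one_mul q).symm
        _ ≤ D.relIndex (D ⊔ J) * q := Nat.mul_le_mul_right q (by omega)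
        _ = _ := hqD
    have hbig : 16 < J.relIndex D * Nat.card U :=
      lt_of_lt_of_le hlt (Nat.mul_le_mul_left _ hqU)
    have hU8 : 8 ≤ Nat.card U := by
      have hd : Nat.card U ∣ 16 := by simpa using U.card_addSubgroup_dvd_card
      have h5 : 5 ≤ Nat.card U := by
        by_contra h
        have := Nat.mul_le_mul hr (show Nat.card U ≤ 4 by omega)
        omega
      by_contra h
      interval_cases hc : Nat.card U <;> omega
    by_cases hfull : ∀ M : M2, ∃ x ∈ S.N, F.mat x = M
    · obtain ⟨o, ho, hom⟩ := hfull omegaMap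
      have hCA := F.C_eq_A ho hom
      have hne := F.sq_ne_of_full hfull
      have hDA : D ≤ S.A := fun d hd => hCA ▸ (hd.2 : d ∈ S.C)
      by_cases hU16' : Nat.card U = 16
      · have htop : U = ⊤ := AddSubgroup.eq_top_of_card_eq U (by simp [hU16'])
        have key : ∀ (M : M2) (u : V2), M ≠ 0 → (∃ v : V2, v ≠ 0 ∧ app M v = 0) →
            (∀ v : V2, v ≠ 0 → app M v = 0 → v = u) →
            ∃ y ∈ J, y ∈ S.A ∧ F.sq y = u := by
          intro M u hM hs huniq
          obtain ⟨x, hx, rfl⟩ : ∃ x ∈ HN, F.mat x = M := by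
            have : M ∈ U := htop ▸ AddSubgroup.mem_top M
            exact this
          have hxA : x ^ 2 ∈ S.A := hCA ▸ F.sq_mem_N hx.2
          refine ⟨x ^ 2, hJ x hx.1, hxA, huniq _ (hne x hx.2 hM hs) ?_⟩
          have h := F.conj_A hx.2 hxA
          rw [show x⁻¹ * x ^ 2 * x = x ^ 2 by simp [pow_two, mul_assoc]] at h
          exact F.emb_eq_one (mul_eq_left.mp h.symm)
        obtain ⟨y₁, hy₁, hy₁A, hs₁⟩ := key nilT (1, 0) (by decide) (by decide) (by decide)
        obtain ⟨y₂, hy₂, hy₂A, hs₂⟩ := key ((0, 1), (0, 0)) (0, 1) (by decide) (by decide) (by decide)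
        have hAJ : S.A ≤ J := by
          intro a ha
          set b := y₁ ^ (F.sq a).1.val * y₂ ^ (F.sq a).2.val with hb
          have hbA : b ∈ S.A := mul_mem (pow_mem hy₁A _) (pow_mem hy₂A _)
          have hsb : F.sq b = F.sq a := by
            rw [hb]
            rcases v2_cases (F.sq a) with e | e | e | e <;> rw [e] <;>
              simp [ZMod.val_one, F.sq_W (one_mem _), hs₁, hs₂, F.sq_mul hy₁A hy₂A, Prod.ext_iff]
          have hbJ : b ∈ J := mul_mem (pow_mem hy₁ _) (pow_mem hy₂ _)
          have hW : b⁻¹ * a ∈ S.W := by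
            refine F.mem_W_of_sq (mul_mem (inv_mem hbA) ha) ?_
            have h := F.sq_mul hbA (mul_mem (inv_mem hbA) ha)
            rw [mul_inv_cancel_left, hsb] at h
            exact left_eq_add.mp h
          have hWJ : b⁻¹ * a ∈ J := by
            obtain ⟨v, hv⟩ := F.emb_surj hW
            rw [← hv]
            have hz : F.z ∈ J := by
              have : y₁ ^ 2 = F.z := by
                rw [← F.emb_sq hy₁A, hs₁]; simp [Frame.emb, ZMod.val_one]
              rw [← this]; exact pow_mem hy₁ 2
            have hw : F.w ∈ J := by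
              have : y₂ ^ 2 = F.w := by
                rw [← F.emb_sq hy₂A, hs₂]; simp [Frame.emb, ZMod.val_one]
              rw [← this]; exact pow_mem hy₂ 2
            exact mul_mem (pow_mem hz _) (pow_mem hw _)
          simpa using mul_mem hbJ hWJ
        have : J.relIndex D = 1 := relIndex_eq_one.mpr (hDA.trans hAJ)
        rw [this] at hbig
        omega
      · have hU8' : Nat.card U ≤ 8 := by
          have hd : Nat.card U ∣ 16 := by simpa using U.card_addSubgroup_dvd_card
          by_contra h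
          interval_cases hc : Nat.card U <;> omega
        obtain ⟨M, hMU, hM0, hs⟩ := exists_singular U hU8
        obtain ⟨x, hx, rfl⟩ := hMU
        have hy := hne x hx.2 hM0 hs
        have hxA : x ^ 2 ∈ S.A := hCA ▸ F.sq_mem_N hx.2
        have hyJ : x ^ 2 ∈ J ⊓ D := ⟨hJ x hx.1, pow_mem hx.1 2, F.sq_mem_N hx.2⟩
        have hy2 : (x ^ 2) ^ 2 ≠ 1 := fun h => hy (F.sq_W ⟨hxA, h⟩)
        have h3 : J.relIndex D = 4 := hr4.2 (by
          by_contra h
          have := Nat.mul_le_mul (show J.relIndex D ≤ 2 by omega) hU8'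
          omega)
        have hord : orderOf (x ^ 2) = 4 := by
          refine orderOf_eq_prime_pow (p := 2) (n := 1) ?_ ?_
          · simpa using hy2
          · simpa using S.exp4 _ hxA
        have hcard4 : 4 ≤ Nat.card ↥(J ⊓ D) := by
          rw [← hord, ← Nat.card_zpowers]
          exact card_le_of_le (zpowers_le.mpr hyJ)
        have hcardA : Nat.card S.A ≤ 16 := by
          let f : S.A →* S.W :=
            { toFun := fun a => ⟨a.1 ^ 2, pow_mem a.2 2, by rw [← pow_mul]; exact S.exp4 _ a.2⟩
              map_one' := by apply Subtype.ext; simp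
              map_mul' := fun a b => Subtype.ext (Commute.mul_pow (S.comm a.1 a.2 b.1 b.2) 2) }
          have h1 := card_mul_index f.ker
          rw [index_ker] at h1
          have h2 : Nat.card f.ker ≤ 4 := by
            refine le_trans (Nat.card_le_card_of_injective
              (fun a : f.ker => (⟨a.1.1, a.1.2, congrArg Subtype.val a.2⟩ : S.W))
              fun a b h => Subtype.ext (Subtype.ext (congrArg Subtype.val h :))) S.card_W_le
          have h3 := card_le_of_le (le_top : f.range ≤ ⊤)
          rw [card_top] at h3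
          have h4 := Nat.mul_le_mul h2 (le_trans h3 S.card_W_le)
          omega
        have hcD : Nat.card D = 4 * Nat.card ↥(J ⊓ D) := by
          have h := card_mul_index ((J ⊓ D).subgroupOf D)
          have e1 : ((J ⊓ D).subgroupOf D).index = 4 :=
            (inf_relIndex_right J D).trans h3
          rw [e1, Nat.card_congr (subgroupOfEquivOfLe (inf_le_right : J ⊓ D ≤ D)).toEquiv] at h
          omega
        have hDeq : D = S.A := eq_of_le_of_card_ge hDA (by omega)
        -- then the involutions lie in the intersection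
        have hW : S.W ≤ J ⊓ D := by
          intro w hw
          refine ⟨?_, hDeq ▸ hw.1⟩
          obtain ⟨v, rfl⟩ := F.emb_surj hw
          have ha := F.gen_mem v
          rw [← hDeq] at ha
          have := hJ _ ha.1
          rwa [← F.emb_sq (F.gen_mem v), F.sq_gen] at this
        have hlt' : Nat.card S.W < Nat.card ↥(J ⊓ D) := by
          refine Set.Finite.card_lt_card (Set.toFinite _) (lt_of_le_of_ne hW ?_)
          intro e
          have hm : x ^ 2 ∈ (S.W : Set P) := by rw [e]; exact hyJ
          exact hy2 hm.2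
        rw [F.card_W] at hlt'
        have := card_le_of_le hDA
        omega
    · push Not at hfull
      obtain ⟨M₀, hM₀⟩ := hfull
      have hsub : ∀ M, M ∈ U ↔ M ∈ F.image S.N le_rfl := by
        have hle : U ≤ F.image S.N le_rfl := fun M ⟨x, hx, hm⟩ => ⟨x, hx.2, hm⟩
        have hcard : Nat.card (F.image S.N le_rfl) ≤ 8 := by
          have hd : Nat.card (F.image S.N le_rfl) ∣ 16 := by
            simpa using (F.image S.N le_rfl).card_addSubgroup_dvd_card
          have hne : Nat.card (F.image S.N le_rfl) ≠ 16 := by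
            intro h
            have htop : F.image S.N le_rfl = ⊤ := AddSubgroup.eq_top_of_card_eq _ (by simp [h])
            obtain ⟨x, hx, hm⟩ : M₀ ∈ F.image S.N le_rfl := htop ▸ AddSubgroup.mem_top M₀
            exact hM₀ x hx hm
          have := Nat.le_of_dvd (by norm_num) hd
          by_contra h
          interval_cases hc : Nat.card (F.image S.N le_rfl) <;> omega
        have heq := AddSubgroup.eq_of_le_of_card_ge hle (by omega)
        exact fun M => heq ▸ Iff.rfl
      have hr2 : 4 ≤ J.relIndex D := by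
        have hU8' : Nat.card U ≤ 8 := by
          by_contra h
          have hd : Nat.card U ∣ 16 := by simpa using U.card_addSubgroup_dvd_card
          have h16 : Nat.card U = 16 := by interval_cases hc : Nat.card U <;> omega
          have htop : U = ⊤ := AddSubgroup.eq_top_of_card_eq U (by simp [h16])
          obtain ⟨x, hx, hm⟩ : M₀ ∈ U := htop ▸ AddSubgroup.mem_top M₀
          exact hM₀ x hx.2 hm
        refine (hr4.2 ?_).ge
        by_contra h
        have := Nat.mul_le_mul (show J.relIndex D ≤ 2 by omega) hU8'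
        omega
      by_cases hN : S.N = ⊤
      · obtain ⟨M, hMU, hgood⟩ := exists_good U hU8
        obtain ⟨x, hx, rfl⟩ := hMU
        exact F.no_good_lift hJH hJ hr2 hx.1 hx.2 hgood (F.central_of hx.2 (Or.inr hN))
      · have hmem : nilT ∈ U := by
          refine nilT_mem U hU8 fun M hM => ?_
          obtain ⟨g, -, hg⟩ := SetLike.exists_of_lt (lt_top_iff_ne_top.mpr hN)
          obtain ⟨x, hx, rfl⟩ := (hsub M).mp hM
          refine (hsub _).mpr ⟨g⁻¹ * x * g, ?_, F.mat_conj hg hx⟩
          simpa using S.N_normal.conj_mem x hx g⁻¹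
        obtain ⟨x, hx, hm⟩ := hmem
        exact F.no_good_lift hJH hJ hr2 hx.1 hx.2 (hm ▸ good_nilT)
          (F.central_of hx.2 (Or.inl (by rw [hm, twist_nilT])))
  · obtain ⟨g, hgH, hgN⟩ := SetLike.not_le_iff_exists.mp hHle
    have hDH2 : D.relIndex H ≤ 2 * Nat.card U := by
      rw [← relIndex_mul_relIndex D HN H (le_inf hDH (inf_le_right.trans S.C_le_N)) inf_le_left,
        Nat.mul_comm 2, hDU]
      exact Nat.mul_le_mul_left _ (by rw [inf_relIndex_left]; exact S.relIndex_N_le H)
    let ψ : U →+ M2 :=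
      { toFun := fun M => M.1 + twist M.1
        map_zero' := by simp [show twist (0 : M2) = 0 by decide]
        map_add' := fun a b => by
          show a.1 + b.1 + twist (a.1 + b.1) = _
          rw [twist_add]; abel }
    have hψ : Nat.card ψ.range ≤ D.relIndex (D ⊔ J) := by
      set X := (D ⊔ J) ⊓ S.N with hX
      have h1 : S.C.relIndex X = Nat.card (F.image X inf_le_right) := F.card_image X inf_le_right
      have h2 : ψ.range ≤ F.image X inf_le_right := by
        rintro _ ⟨⟨_, x, hx, rfl⟩, rfl⟩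
        have hgx : g⁻¹ * x * g ∈ S.N := by simpa using S.N_normal.conj_mem x hx.2 g⁻¹
        refine ⟨x * (g⁻¹ * x * g), ⟨?_, mul_mem hx.2 hgx⟩, ?_⟩
        · have e : x * (g⁻¹ * x * g) = (x * g⁻¹) ^ 2 * g ^ 2 := by simp [pow_two, mul_assoc]
          rw [e]
          exact le_sup_right (a := D)
            (mul_mem (hJ _ (mul_mem hx.1 (inv_mem hgH))) (hJ _ hgH))
        · rw [F.mat_mul hx.2 hgx, F.mat_conj hgN hx.2]; rfl
      have h3 : S.C.relIndex X ≤ D.relIndex (D ⊔ J) := by
        rw [← inf_relIndex_right S.C X]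
        have e : S.C ⊓ X = D := le_antisymm
          (fun y hy => ⟨sup_le hDH hJH hy.2.1, hy.1⟩)
          (fun y hy => ⟨hy.2, le_sup_left (b := J) hy, S.C_le_N hy.2⟩)
        rw [e]
        exact relIndex_le_of_le_right inf_le_left h0
      exact le_trans (AddSubgroup.card_le_of_le h2) (h1 ▸ h3)
    have hsum : Nat.card U = Nat.card ψ.ker * Nat.card ψ.range := by
      rw [← AddSubgroup.index_ker, AddSubgroup.card_mul_index]
    have hker : ∀ M : U, M ∈ ψ.ker → M.1 + twist M.1 = 0 := fun M h => h
    have hqker : q ≤ 2 * Nat.card ψ.ker := by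
      have h1 : Nat.card ψ.range * q ≤ 2 * (Nat.card ψ.ker * Nat.card ψ.range) := by
        rw [← hsum]
        exact le_trans (le_of_le_of_eq (Nat.mul_le_mul_right q hψ) hqD) hDH2
      have hpos : 0 < Nat.card ψ.range := Nat.card_pos
      refine Nat.le_of_mul_le_mul_left ?_ hpos
      linarith
    have hfix : ∀ M : M2, M + twist M = 0 →
        M = 0 ∨ M = nilT ∨ M = ((1, 0), (0, 1)) ∨ M = ((1, 0), (1, 1)) := by decide
    by_cases hT : nilT ∈ U
    · have hk4 : Nat.card ψ.ker ≤ 4 := by
        have : Nat.card (Fin 4) = 4 := by simp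
        rw [← this]
        classical
        refine Nat.card_le_card_of_surjective
          (fun i : Fin 4 => if h : (![(0 : M2), nilT, ((1, 0), (0, 1)), ((1, 0), (1, 1))] i) ∈ U ∧
              (![(0 : M2), nilT, ((1, 0), (0, 1)), ((1, 0), (1, 1))] i) +
                twist (![(0 : M2), nilT, ((1, 0), (0, 1)), ((1, 0), (1, 1))] i) = 0
            then (⟨⟨_, h.1⟩, h.2⟩ : ψ.ker) else 0) ?_
        rintro ⟨⟨M, hM⟩, hMk⟩
        have hk' : M + twist M = 0 := hMk
        rcases hfix M hk' with rfl | rfl | rfl | rfl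
        exacts [⟨0, dif_pos ⟨hM, hk'⟩⟩, ⟨1, dif_pos ⟨hM, hk'⟩⟩, ⟨2, dif_pos ⟨hM, hk'⟩⟩,
          ⟨3, dif_pos ⟨hM, hk'⟩⟩]
      obtain ⟨x, hx, hm⟩ := hT
      refine F.no_good_lift hJH hJ ((hr4.2 ?_).ge) hx.1 hx.2 (hm ▸ good_nilT)
        (F.central_of hx.2 (Or.inl (by rw [hm, twist_nilT])))
      by_contra h
      have := Nat.mul_le_mul (show J.relIndex D ≤ 2 by omega)
        (le_trans hqker (Nat.mul_le_mul_left 2 hk4))
      omega
    · have hk2 : Nat.card ψ.ker ≤ 2 := by
        have h1 : Nat.card ψ.ker ≤ Nat.card Bool := by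
          refine Nat.card_le_card_of_injective (fun M => decide (M.1.1 = 0)) ?_
          rintro ⟨⟨M, hM⟩, hMk⟩ ⟨⟨M', hM'⟩, hMk'⟩ h
          apply Subtype.ext; apply Subtype.ext
          show M = M'
          have hd : decide (M = 0) = decide (M' = 0) := h
          rcases hfix M hMk with rfl | rfl | rfl | rfl <;>
            rcases hfix M' hMk' with rfl | rfl | rfl | rfl
          all_goals first
            | rfl
            | exact absurd hM hT
            | exact absurd hM' hT
            | (exfalso; revert hd; decide)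
            | exact absurd (show nilT ∈ U from by
                have := add_mem hM hM'
                exact this) hT
        simpa using h1
      have := Nat.mul_le_mul hr (le_trans hqker (Nat.mul_le_mul_left 2 hk2))
      omega

end Setup.Frame

/-- In a 2-group without normal elementary abelian subgroups of order eight, a subgroup containing
the squares of a subgroup has index at most sixteen in it. -/
theorem relIndex_le_sixteen {P : Type*} [Group P] [Finite P] (hP : IsPGroup 2 P)
    (h : ∀ E : Subgroup P, E.Normal → IsMulCommutative E → (∀ a ∈ E, a ^ 2 = 1) → Nat.card E ≤ 4)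
    {H J : Subgroup P} (hJH : J ≤ H) (hJ : ∀ x ∈ H, x ^ 2 ∈ J) : J.relIndex H ≤ 16 := by
  have : Fact (Nat.Prime 2) := ⟨Nat.prime_two⟩
  have := hP.isNilpotent
  let Cand : Set (Subgroup P) :=
    {A | A.Normal ∧ (∀ a ∈ A, ∀ b ∈ A, a * b = b * a) ∧ ∀ a ∈ A, a ^ 4 = 1}
  have hbot : (⊥ : Subgroup P) ∈ Cand :=
    ⟨inferInstance, fun a ha b hb => by simp [mem_bot.mp ha, mem_bot.mp hb],
      fun a ha => by simp [mem_bot.mp ha]⟩
  obtain ⟨A, hA⟩ := (Set.toFinite Cand).exists_maximal ⟨⊥, hbot⟩
  obtain ⟨⟨hn, hc, h4⟩, hmax⟩ := hA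
  let S : Setup P :=
    { A := A
      pGroup := hP
      normal := hn
      comm := hc
      exp4 := h4
      omega := fun x hx hx4 => omega_centralizer A hn hc h4
        (fun B hBn hBc hB4 hAB => hmax ⟨hBn, hBc, hB4⟩ hAB) x hx hx4
      small := h }
  by_cases hQ : Nat.card S.Q = 4
  · obtain ⟨F⟩ := S.exists_frame hQ
    exact F.relIndex_le_sixteen hJH hJ
  · exact S.small_case hQ hJH hJ

end CfsgLib.FourGen42
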