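import Cfsg.Agent.FourGen42.Omega

/-!
General facts on a 2-group with an abelian normal subgroup containing all elements of order
dividing four of its centraliser, and the bound when that subgroup has order at most eight.
-/

namespace CfsgLib.FourGen42

open Subgroup

/-- A 2-group with no normal elementary abelian subgroup of order eight, together with an abelian
normal subgroup of exponent four containing all elements of order dividing four which centralise it. -/
structure Setup (P : Type*) [Group P] where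
  /-- The abelian normal subgroup. -/
  A : Subgroup P
  pGroup : IsPGroup 2 P
  normal : A.Normal
  comm : ∀ a ∈ A, ∀ b ∈ A, a * b = b * a
  exp4 : ∀ a ∈ A, a ^ 4 = 1
  omega : ∀ x : P, (∀ a ∈ A, a * x = x * a) → x ^ 4 = 1 → x ∈ A
  small : ∀ E : Subgroup P, E.Normal → IsMulCommutative E → (∀ a ∈ E, a ^ 2 = 1) → Nat.card E ≤ 4

variable {P : Type*} [Group P] [Finite P] (S : Setup P)

namespace Setup

/-- The centraliser of the abelian subgroup. -/
def C : Subgroup P := centralizer (S.A : Set P)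

/-- The elements of order dividing two in the abelian subgroup. -/
def W : Subgroup P where
  carrier := {x | x ∈ S.A ∧ x ^ 2 = 1}
  one_mem' := ⟨one_mem _, one_pow 2⟩
  mul_mem' {a b} ha hb := ⟨mul_mem ha.1 hb.1, by
    rw [Commute.mul_pow (S.comm a ha.1 b hb.1), ha.2, hb.2, one_mul]⟩
  inv_mem' {a} ha := ⟨inv_mem ha.1, by rw [inv_pow, ha.2, inv_one]⟩

/-- The centraliser of the elements of order dividing two. -/
def N : Subgroup P := centralizer (S.W : Set P)

theorem mem_C {x : P} : x ∈ S.C ↔ ∀ a ∈ S.A, a * x = x * a :=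
  mem_centralizer_iff

theorem mem_N {x : P} : x ∈ S.N ↔ ∀ a ∈ S.W, a * x = x * a :=
  mem_centralizer_iff

theorem mem_W {x : P} : x ∈ S.W ↔ x ∈ S.A ∧ x ^ 2 = 1 := Iff.rfl

theorem W_le_A : S.W ≤ S.A := fun _ h => h.1

theorem A_le_C : S.A ≤ S.C := fun a ha => S.mem_C.mpr fun b hb => S.comm b hb a ha

theorem C_le_N : S.C ≤ S.N := fun x hx => S.mem_N.mpr fun a ha => S.mem_C.mp hx a ha.1

theorem C_normal : S.C.Normal := by
  have := S.normal
  exact inferInstanceAs (centralizer (S.A : Set P)).Normal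

theorem conj_inv_mem_A (g : P) {a : P} (ha : a ∈ S.A) : g⁻¹ * a * g ∈ S.A := by
  simpa using S.normal.conj_mem a ha g⁻¹

theorem conj_inv_mem_C (g : P) {a : P} (ha : a ∈ S.C) : g⁻¹ * a * g ∈ S.C := by
  simpa using S.C_normal.conj_mem a ha g⁻¹

theorem conj_inv_sq (g a : P) : (g⁻¹ * a * g) ^ 2 = g⁻¹ * a ^ 2 * g := by
  simp [pow_two, mul_assoc]

theorem conj_inv_mem_W (g : P) {a : P} (ha : a ∈ S.W) : g⁻¹ * a * g ∈ S.W :=
  ⟨S.conj_inv_mem_A g ha.1, by rw [conj_inv_sq, ha.2]; group⟩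

theorem W_normal : S.W.Normal :=
  ⟨fun a ha g => by simpa using S.conj_inv_mem_W g⁻¹ ha⟩

theorem N_normal : S.N.Normal := by
  have := S.W_normal
  exact inferInstanceAs (centralizer (S.W : Set P)).Normal

theorem conj_W {x : P} (hx : x ∈ S.N) {a : P} (ha : a ∈ S.W) : x⁻¹ * a * x = a := by
  rw [mul_assoc, S.mem_N.mp hx a ha, inv_mul_cancel_left]

theorem comm_W {x : P} (hx : x ∈ S.N) {a : P} (ha : a ∈ S.W) : a * x = x * a :=
  S.mem_N.mp hx a ha

theorem W_isMulCommutative : IsMulCommutative S.W :=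
  ⟨⟨fun a b => Subtype.ext (S.comm a.1 a.2.1 b.1 b.2.1)⟩⟩

theorem card_W_le : Nat.card S.W ≤ 4 :=
  S.small S.W S.W_normal S.W_isMulCommutative fun _ h => h.2

theorem omega_mem {x : P} (hx : x ∈ S.C) (h : x ^ 4 = 1) : x ∈ S.A :=
  S.omega x (S.mem_C.mp hx) h

theorem omega_two {x : P} (hx : x ∈ S.C) (h : x ^ 2 = 1) : x ∈ S.W :=
  ⟨S.omega_mem hx (by rw [show (4 : ℕ) = 2 * 2 from rfl, pow_mul, h, one_pow]), h⟩

theorem four_commute {x y : P} (hx : x ∈ S.C) (hy : y ∈ S.C) (h : x ^ 4 = 1) :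
    x * y = y * x :=
  S.mem_C.mp hy x (S.omega_mem hx h)

theorem fourCentral {D : Subgroup P} (hD : D ≤ S.C) : FourCentral D := fun x g hx =>
  Subtype.ext (S.four_commute (hD x.2) (hD g.2) (by simpa using congrArg Subtype.val hx))

theorem relIndex_le {D J : Subgroup P} (hD : D ≤ S.C) (hJ : ∀ d ∈ D, d ^ 2 ∈ J) :
    J.relIndex D ≤ Nat.card S.W := by
  refine le_trans (index_le _ D rfl (S.pGroup.to_subgroup D) (S.fourCentral hD)
    (J.subgroupOf D) (fun d => hJ d.1 d.2)) ?_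
  refine Nat.card_le_card_of_injective
    (fun x => (⟨x.1.1, S.omega_two (hD x.1.2) (by simpa using congrArg Subtype.val x.2)⟩ : S.W)) ?_
  intro a b h
  exact Subtype.ext (Subtype.ext (congrArg Subtype.val h :))

include S in
theorem relIndex_cases {D J : Subgroup P} : ∃ k, J.relIndex D = 2 ^ k := by
  have : Fact (Nat.Prime 2) := ⟨Nat.prime_two⟩
  exact (S.pGroup.to_subgroup D).index (J.subgroupOf D)

omit [Finite P] in
theorem exists_pow {γ : P} (hP : IsPGroup 2 P) (h : γ ^ 4 ≠ 1) :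
    ∃ n : ℕ, (γ ^ n) ^ 8 = 1 ∧ (γ ^ n) ^ 4 ≠ 1 := by
  classical
  have hex : ∃ m : ℕ, γ ^ 2 ^ m = 1 := hP γ
  obtain ⟨k, hk, hk'⟩ : ∃ k, γ ^ 2 ^ k = 1 ∧ ∀ j < k, γ ^ 2 ^ j ≠ 1 :=
    ⟨Nat.find hex, Nat.find_spec hex, fun j hj => Nat.find_min hex hj⟩
  have hk3 : 3 ≤ k := by
    by_contra hlt
    refine h ?_
    obtain ⟨l, hl⟩ : (2 : ℕ) ^ k ∣ 4 := pow_dvd_pow 2 (by omega : k ≤ 2)
    rw [hl, pow_mul, hk, one_pow]
  obtain ⟨k, rfl⟩ : ∃ j, k = j + 3 := ⟨k - 3, by omega⟩
  refine ⟨2 ^ k, ?_, ?_⟩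
  · rw [← pow_mul, show 2 ^ k * 8 = 2 ^ (k + 3) by ring]; exact hk
  · rw [← pow_mul, show 2 ^ k * 4 = 2 ^ (k + 2) by ring]; exact hk' _ (by omega)

theorem exists_central (hW : S.W ≠ ⊥) : ∃ z ∈ S.W, z ≠ 1 ∧ ∀ g : P, g * z = z * g := by
  have : Fact (Nat.Prime 2) := ⟨Nat.prime_two⟩
  have := S.pGroup.isNilpotent
  by_contra hno
  push Not at hno
  have key : ∀ m n, Group.nilpotencyClass P ≤ n + m →
      ∀ z ∈ S.W, z ∈ (⊤ : Subgroup P).lowerCentralSeries n → z = 1 := by
    intro m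
    induction m with
    | zero =>
      intro n hn z _ hz
      have := Subgroup.lowerCentralSeries_antitone (⊤ : Subgroup P)
        (by omega : Group.nilpotencyClass P ≤ n) hz
      rwa [Subgroup.lowerCentralSeries_nilpotencyClass, mem_bot] at this
    | succ m ih =>
      intro n hn z hzW hz
      by_contra hz1
      obtain ⟨g, hg⟩ := hno z hzW hz1
      refine hg ?_
      have h1 : z * g * z⁻¹ * g⁻¹ ∈ (⊤ : Subgroup P).lowerCentralSeries (n + 1) := by
        rw [Subgroup.lowerCentralSeries_succ]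
        exact commutator_mem_commutator hz (mem_top g)
      have h2 : z * g * z⁻¹ * g⁻¹ ∈ S.W := by
        have := mul_mem hzW (S.W_normal.conj_mem _ (inv_mem hzW) g)
        simpa [mul_assoc] using this
      have h3 := ih (n + 1) (by omega) _ h2 h1
      calc g * z = (z * g * z⁻¹ * g⁻¹)⁻¹ * (z * g) := by group
        _ = z * g := by rw [h3, inv_one, one_mul]
  obtain ⟨z, hz, hz1⟩ := (S.W.bot_or_exists_ne_one).resolve_left hW
  exact hz1 (key (Group.nilpotencyClass P) 0 (by omega) z hz (mem_top z))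

theorem fixed_cases (hW : S.W ≠ ⊥) : ∃ z ∈ S.W, z ≠ 1 ∧ (∀ g : P, g * z = z * g) ∧
    ∀ w ∈ S.W, w ∉ zpowers z → S.W = closure {z, w} := by
  obtain ⟨z, hz, hz1, hzc⟩ := S.exists_central hW
  refine ⟨z, hz, hz1, hzc, fun w hw hwz => ?_⟩
  have hle : closure ({z, w} : Set P) ≤ S.W := by
    rw [closure_le]; rintro x (rfl | rfl) <;> assumption
  refine le_antisymm ?_ hle
  have hzC : zpowers z < closure ({z, w} : Set P) := by
    refine lt_of_le_of_ne ?_ fun e => hwz (e ▸ subset_closure (Or.inr rfl))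
    rw [zpowers_le]; exact subset_closure (Or.inl rfl)
  have h2 : Nat.card (zpowers z) = 2 := by
    rw [Nat.card_zpowers]; exact orderOf_eq_prime hz.2 hz1
  have hlt : Nat.card (zpowers z) < Nat.card (closure ({z, w} : Set P)) :=
    Set.Finite.card_lt_card (Set.toFinite _) hzC
  have hdvd := card_dvd_of_le hzC.le
  have h4 := S.card_W_le
  have hle' := card_le_of_le hle
  refine le_of_eq (eq_of_le_of_card_ge hle ?_).symm
  obtain ⟨c, hc⟩ := hdvd
  rw [h2] at hc hlt
  omega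

theorem index_N_le : S.N.index ≤ 2 := by
  by_cases htop : S.N = ⊤
  · rw [htop, index_top]; norm_num
  obtain ⟨g, -, hg⟩ := SetLike.exists_of_lt (lt_top_iff_ne_top.mpr htop)
  have hW : S.W ≠ ⊥ := by
    intro h; refine hg (S.mem_N.mpr fun a ha => ?_)
    rw [h, mem_bot] at ha; simp [ha]
  obtain ⟨z, hz, hz1, hzc, hgen⟩ := S.fixed_cases hW
  obtain ⟨w, hw, hwz⟩ : ∃ w ∈ S.W, w ∉ zpowers z := by
    by_contra hno
    push Not at hno
    refine hg (S.mem_N.mpr fun a ha => ?_)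
    obtain ⟨i, rfl⟩ := mem_zpowers_iff.mp (hno a ha)
    exact ((Commute.zpow_left (hzc g).symm i)).eq
  have hW' := hgen w hw hwz
  have hmemN : ∀ x : P, x ∈ S.N ↔ x⁻¹ * w * x = w := by
    intro x
    refine ⟨fun hx => S.conj_W hx hw, fun hx => ?_⟩
    rw [Setup.N, hW', centralizer_closure]
    refine mem_centralizer_iff.mpr ?_
    rintro a (rfl | rfl)
    · exact (hzc x).symm
    · calc a * x = x * (x⁻¹ * a * x) := by group
        _ = x * a := by rw [hx]
  have hout : ∀ x : P, x ∉ S.N → x⁻¹ * w * x = w * z := by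
    intro x hx
    have hmem : x⁻¹ * w * x ∈ S.W := S.conj_inv_mem_W x hw
    have hcom : Commute w z := S.comm w hw.1 z hz.1
    have hz2 : z * z = 1 := by rw [← pow_two]; exact hz.2
    have hw2 : w * w = 1 := by rw [← pow_two]; exact hw.2
    have key : ∀ u ∈ S.W, u = 1 ∨ u = z ∨ u = w ∨ u = w * z := by
      intro u hu
      let f : Fin 4 → S.W := ![1, ⟨z, hz⟩, ⟨w, hw⟩, ⟨w * z, mul_mem hw hz⟩]
      have hne1 : w ≠ 1 := fun e => hwz (e ▸ one_mem _)
      have hne2 : w ≠ z := fun e => hwz (e ▸ mem_zpowers z)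
      have hne3 : w * z ≠ 1 := fun e => hne2 (by
        rw [eq_inv_of_mul_eq_one_left e]; exact inv_eq_of_mul_eq_one_right hz2)
      have hne4 : w * z ≠ z := fun e => hne1 (mul_eq_right.mp e)
      have hne5 : w * z ≠ w := fun e => hz1 (mul_eq_left.mp e)
      have hinj : Function.Injective f := by
        intro i j hij
        have hij' : ((f i : S.W) : P) = ((f j : S.W) : P) := congrArg Subtype.val hij
        fin_cases i <;> fin_cases j <;> first
          | rfl
          | exact absurd hij' hz1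
          | exact absurd hij'.symm hz1
          | exact absurd hij' hne1
          | exact absurd hij'.symm hne1
          | exact absurd hij' hne2
          | exact absurd hij'.symm hne2
          | exact absurd hij' hne3
          | exact absurd hij'.symm hne3
          | exact absurd hij' hne4
          | exact absurd hij'.symm hne4
          | exact absurd hij' hne5
          | exact absurd hij'.symm hne5
      have hbij : Function.Bijective f := by
        refine (Nat.bijective_iff_injective_and_card f).mpr ⟨hinj, ?_⟩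
        have h1 := Nat.card_le_card_of_injective f hinj
        have h2 := S.card_W_le
        simp at h1 ⊢
        omega
      obtain ⟨i, hi⟩ := hbij.2 ⟨u, hu⟩
      have hi' : u = ((f i : S.W) : P) := (congrArg Subtype.val hi).symm
      fin_cases i
      · exact Or.inl hi'
      · exact Or.inr (Or.inl hi')
      · exact Or.inr (Or.inr (Or.inl hi'))
      · exact Or.inr (Or.inr (Or.inr hi'))
    rcases key _ hmem with h | h | h | h
    · exfalso
      have : w = 1 := by
        calc w = x * (x⁻¹ * w * x) * x⁻¹ := by group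
          _ = 1 := by rw [h]; group
      exact hwz (this ▸ one_mem _)
    · exfalso
      have : w = z := by
        calc w = x * (x⁻¹ * w * x) * x⁻¹ := by group
          _ = z := by rw [h, hzc x]; group
      exact hwz (this ▸ mem_zpowers z)
    · exact absurd ((hmemN x).mpr h) hx
    · exact h
  refine le_of_eq (index_eq_two_iff.mpr ⟨g, fun b => ?_⟩)
  by_cases hb : b ∈ S.N
  · refine Or.inr ⟨hb, fun h => hg ?_⟩
    simpa using mul_mem (inv_mem hb) h
  · refine Or.inl ⟨(hmemN _).mpr ?_, hb⟩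
    calc (b * g)⁻¹ * w * (b * g) = g⁻¹ * (b⁻¹ * w * b) * g := by group
      _ = (g⁻¹ * w * g) * (g⁻¹ * z * g) := by rw [hout b hb]; group
      _ = w := by
        rw [hout g hg, mul_assoc g⁻¹ z g, ← hzc g, inv_mul_cancel_left, mul_assoc, ← pow_two,
          hz.2, mul_one]

theorem relIndex_N_le (H : Subgroup P) : S.N.relIndex H ≤ 2 := by
  refine le_trans ?_ S.index_N_le
  rw [← relIndex_top_right]
  exact relIndex_le_of_le_right le_top (by rw [relIndex_top_right]; exact index_ne_zero_of_finite)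

theorem index_split {H : Subgroup P} {J : Subgroup P} (hJH : J ≤ H) (hJ : ∀ h ∈ H, h ^ 2 ∈ J)
    {D : Subgroup P} (hDH : D ≤ H) :
    J.relIndex H = J.relIndex D * (D ⊔ J).relIndex H := by
  have h1 : J.relIndex (D ⊔ J) * (D ⊔ J).relIndex H = J.relIndex H :=
    relIndex_mul_relIndex _ _ _ le_sup_right (sup_le hDH hJH)
  rw [← h1]
  congr 1
  have hn : (J.subgroupOf H).Normal := normal_of_sq _ (fun d => hJ d.1 d.2)
  have hsup : J.relIndex (D ⊔ J) = (J.subgroupOf H).relIndex ((D ⊔ J).subgroupOf H) :=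
    (relIndex_subgroupOf (sup_le hDH hJH)).symm
  rw [hsup, subgroupOf_sup hDH hJH, relIndex_sup_right, relIndex_subgroupOf hDH]

/-- The squares of the abelian subgroup, as a subgroup. -/
def Q : Subgroup P where
  carrier := {x | ∃ a ∈ S.A, a ^ 2 = x}
  one_mem' := ⟨1, one_mem _, one_pow 2⟩
  mul_mem' := by
    rintro _ _ ⟨a, ha, rfl⟩ ⟨b, hb, rfl⟩
    exact ⟨a * b, mul_mem ha hb, Commute.mul_pow (S.comm a ha b hb) 2⟩
  inv_mem' := by
    rintro _ ⟨a, ha, rfl⟩
    exact ⟨a⁻¹, inv_mem ha, inv_pow a 2⟩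

theorem Q_le_W : S.Q ≤ S.W := by
  rintro _ ⟨a, ha, rfl⟩
  exact ⟨pow_mem ha 2, by rw [← pow_mul]; exact S.exp4 a ha⟩

theorem small_case (hQ : ¬ (Nat.card S.Q = 4)) {H J : Subgroup P} (hJH : J ≤ H)
    (hJ : ∀ h ∈ H, h ^ 2 ∈ J) : J.relIndex H ≤ 16 := by
  set D := H ⊓ S.C with hD
  have hDH : D ≤ H := inf_le_left
  have hr : J.relIndex D ≤ 4 :=
    le_trans (S.relIndex_le inf_le_right fun d hd => hJ d (hDH hd)) S.card_W_le
  rw [index_split hJH hJ hDH]
  suffices (D ⊔ J).relIndex H ≤ 4 from le_trans (Nat.mul_le_mul hr this) (by norm_num)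
  -- a generator of the abelian subgroup modulo its involutions
  have hQ2 : Nat.card S.Q ≤ 2 := by
    have h1 := card_le_of_le S.Q_le_W
    have h2 := S.card_W_le
    have h3 : ∃ k, Nat.card S.Q = 2 ^ k :=
      (haveI : Fact (Nat.Prime 2) := ⟨Nat.prime_two⟩;
       IsPGroup.iff_card.mp (S.pGroup.to_subgroup S.Q))
    obtain ⟨k, hk⟩ := h3
    rcases k with _ | _ | _ | k
    · omega
    · omega
    · omega
    · have : 2 ^ 3 ≤ 2 ^ (k + 1 + 1 + 1) := Nat.pow_le_pow_right (by norm_num) (by omega)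
      omega
  obtain ⟨a₀, ha₀, hgen⟩ : ∃ a₀ ∈ S.A, ∀ a ∈ S.A, a ∈ S.W ∨ a₀⁻¹ * a ∈ S.W := by
    by_cases hall : ∀ a ∈ S.A, a ∈ S.W
    · exact ⟨1, one_mem _, fun a ha => Or.inl (hall a ha)⟩
    push Not at hall
    obtain ⟨a₀, ha₀, ha₀W⟩ := hall
    refine ⟨a₀, ha₀, fun a ha => ?_⟩
    by_contra hno
    push Not at hno
    have hne : ∀ x ∈ S.A, x ∉ S.W → x ^ 2 ≠ 1 := fun x hx hxW h => hxW ⟨hx, h⟩
    have h3 : Nat.card (Fin 3) ≤ Nat.card S.Q := by
      refine Nat.card_le_card_of_injective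
        (![(1 : S.Q), ⟨a₀ ^ 2, a₀, ha₀, rfl⟩, ⟨a ^ 2, a, ha, rfl⟩]) ?_
      have e1 := hne a₀ ha₀ ha₀W
      have e2 := hne a ha hno.1
      have e3 : a₀ ^ 2 ≠ a ^ 2 := by
        intro e
        refine hne _ (mul_mem (inv_mem ha₀) ha) hno.2 ?_
        rw [Commute.mul_pow (S.comm _ (inv_mem ha₀) _ ha), inv_pow, e, inv_mul_cancel]
      intro i j hij
      fin_cases i <;> fin_cases j <;> first
        | rfl
        | (simp [Subtype.ext_iff] at hij; simp_all [eq_comm])
    simp at h3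
    omega
  have hconjA : ∀ x ∈ S.N, a₀⁻¹ * (x⁻¹ * a₀ * x) ∈ S.W := by
    intro x hx
    have hm := S.conj_inv_mem_A x ha₀
    rcases hgen _ hm with h | h
    · refine ⟨mul_mem (inv_mem ha₀) hm, ?_⟩
      rw [Commute.mul_pow (S.comm _ (inv_mem ha₀) _ hm), h.2, mul_one, inv_pow]
      have : a₀ ^ 2 = 1 := by
        calc a₀ ^ 2 = x * (x⁻¹ * a₀ * x) ^ 2 * x⁻¹ := by rw [conj_inv_sq]; group
          _ = 1 := by rw [h.2]; group
      rw [this, inv_one]
    · exact h
  let HN := H ⊓ S.N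
  let m : HN →* S.W :=
    { toFun := fun x => ⟨a₀⁻¹ * (x.1⁻¹ * a₀ * x.1), hconjA x.1 x.2.2⟩
      map_one' := by apply Subtype.ext; simp
      map_mul' := fun x y => by
        apply Subtype.ext
        show a₀⁻¹ * ((x.1 * y.1)⁻¹ * a₀ * (x.1 * y.1)) =
          a₀⁻¹ * (x.1⁻¹ * a₀ * x.1) * (a₀⁻¹ * (y.1⁻¹ * a₀ * y.1))
        have h := S.conj_W y.2.2 (hconjA x.1 x.2.2)
        have hc := S.comm _ (S.W_le_A (hconjA x.1 x.2.2)) _ (S.W_le_A (hconjA y.1 y.2.2))
        rw [hc]
        calc a₀⁻¹ * ((x.1 * y.1)⁻¹ * a₀ * (x.1 * y.1))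
            = a₀⁻¹ * (y.1⁻¹ * a₀ * y.1) * (y.1⁻¹ * (a₀⁻¹ * (x.1⁻¹ * a₀ * x.1)) * y.1) := by group
          _ = _ := by rw [h] }
  have hker : m.ker ≤ D.subgroupOf HN := by
    intro x hx
    have hx1 : a₀⁻¹ * (x.1⁻¹ * a₀ * x.1) = 1 := congrArg Subtype.val hx
    refine ⟨x.2.1, S.mem_C.mpr fun a ha => ?_⟩
    have ha₀x : a₀ * x.1 = x.1 * a₀ := by
      have h := inv_mul_eq_one.mp hx1
      calc a₀ * x.1 = x.1 * (x.1⁻¹ * a₀ * x.1) := by group
        _ = x.1 * a₀ := by rw [← h]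
    rcases hgen a ha with h | h
    · exact S.comm_W x.2.2 h
    · have hcw : Commute (a₀⁻¹ * a) x.1 := S.comm_W x.2.2 h
      have := (Commute.mul_left (show Commute a₀ x.1 from ha₀x) hcw).eq
      simpa using this
  have hHN : D.relIndex HN ≤ Nat.card m.range := by
    rw [← index_ker m]
    exact Nat.le_of_dvd (Nat.pos_of_ne_zero index_ne_zero_of_finite) (index_dvd_of_le hker)
  by_cases hHle : H ≤ S.N
  · have e : HN = H := inf_eq_left.mpr hHle
    have hHN' : D.relIndex H ≤ Nat.card m.range := by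
      calc D.relIndex H = D.relIndex HN := congrArg D.relIndex e.symm
        _ ≤ _ := hHN
    have : (D ⊔ J).relIndex H ≤ D.relIndex H :=
      relIndex_le_of_le_left le_sup_left (D.subgroupOf H).index_ne_zero_of_finite
    have := card_le_of_le (le_top : m.range ≤ ⊤)
    have := S.card_W_le
    rw [card_top] at *
    omega
  by_contra hlt
  push Not at hlt
  -- the quotient is then elementary abelian, so the induced involutions are fixed
  have hD4 : D.relIndex H ≤ 2 * Nat.card m.range := by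
    rw [← relIndex_mul_relIndex D HN H (le_inf hDH (inf_le_right.trans S.C_le_N)) inf_le_left,
      Nat.mul_comm 2]
    exact Nat.mul_le_mul hHN (by rw [inf_relIndex_left]; exact S.relIndex_N_le H)
  have hJD : J ≤ D := by
    by_contra hnot
    have h1 := relIndex_mul_relIndex D (D ⊔ J) H le_sup_left (sup_le hDH hJH)
    have h2 : D.relIndex (D ⊔ J) ≠ 1 := fun e => hnot (le_sup_right.trans (relIndex_eq_one.mp e))
    have h3 : D.relIndex (D ⊔ J) ≠ 0 := (D.subgroupOf (D ⊔ J)).index_ne_zero_of_finite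
    have h5 := Nat.mul_le_mul (show 2 ≤ D.relIndex (D ⊔ J) by omega) hlt
    have := card_le_of_le (le_top : m.range ≤ ⊤)
    have := S.card_W_le
    rw [card_top] at *
    omega
  obtain ⟨g, hgH, hgN⟩ := SetLike.not_le_iff_exists.mp hHle
  let Fix : Subgroup P := S.W ⊓ centralizer {g}
  have hFix : Nat.card Fix ≤ 2 := by
    have hne : Fix < S.W := by
      refine lt_of_le_of_ne inf_le_left fun e => hgN (S.mem_N.mpr fun a ha => ?_)
      rw [← e] at ha
      exact mem_centralizer_singleton_iff.mp ha.2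
    have h1 : Nat.card Fix < Nat.card S.W := Set.Finite.card_lt_card (Set.toFinite _) hne
    have h2 := card_dvd_of_le hne.le
    have h3 := S.card_W_le
    rcases h2 with ⟨c, hc⟩
    rcases c with _ | _ | c
    · omega
    · omega
    · nlinarith
  have hrange : Nat.card m.range ≤ 2 := by
    refine le_trans (Nat.card_le_card_of_injective
      (fun y : m.range => (⟨y.1.1, ?_⟩ : Fix)) ?_) hFix
    · obtain ⟨_, x, rfl⟩ := y
      refine ⟨(m x).2, mem_centralizer_singleton_iff.mpr ?_⟩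
      -- commutation modulo the centraliser
      have hx := x.2.1
      have hc : x.1⁻¹ * g⁻¹ * x.1 * g ∈ S.C := by
        have h1 : (x.1⁻¹) ^ 2 ∈ J := hJ _ (inv_mem hx)
        have h2 : (x.1 * g⁻¹) ^ 2 ∈ J := hJ _ (mul_mem hx (inv_mem hgH))
        have h3 : g ^ 2 ∈ J := hJ _ hgH
        have := (hJD (mul_mem (mul_mem h1 h2) h3)).2
        simpa [pow_two, mul_assoc] using this
      have hxg : x.1 * g = g * x.1 * (x.1⁻¹ * g⁻¹ * x.1 * g) := by group
      obtain ⟨c, hc, hxgc⟩ : ∃ c ∈ S.C, x.1 * g = g * x.1 * c := ⟨_, hc, hxg⟩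
      show a₀⁻¹ * (x.1⁻¹ * a₀ * x.1) * g = g * (a₀⁻¹ * (x.1⁻¹ * a₀ * x.1))
      obtain ⟨u, hu⟩ : ∃ u, u = a₀⁻¹ * (x.1⁻¹ * a₀ * x.1) := ⟨_, rfl⟩
      rw [← hu]
      have huW : u ∈ S.W := hu ▸ hconjA x.1 x.2.2
      obtain ⟨v, hv, hv'⟩ : ∃ v ∈ S.W, g⁻¹ * a₀ * g = a₀ * v := by
        rcases hgen _ (S.conj_inv_mem_A g ha₀) with h | h
        · have h0 : a₀ ∈ S.W := by simpa [mul_assoc] using S.conj_inv_mem_W g⁻¹ h
          exact ⟨a₀⁻¹ * (g⁻¹ * a₀ * g), mul_mem (inv_mem h0) h, by group⟩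
        · exact ⟨_, h, by group⟩
      have hxa : x.1⁻¹ * a₀ * x.1 = a₀ * u := by rw [hu]; group
      have hA1 : (x.1 * g)⁻¹ * a₀ * (x.1 * g) = a₀ * v * (g⁻¹ * u * g) := by
        calc (x.1 * g)⁻¹ * a₀ * (x.1 * g) = g⁻¹ * (x.1⁻¹ * a₀ * x.1) * g := by group
          _ = (g⁻¹ * a₀ * g) * (g⁻¹ * u * g) := by rw [hxa]; group
          _ = _ := by rw [hv']
      have hA2 : (x.1 * g)⁻¹ * a₀ * (x.1 * g) = a₀ * u * v := by
        have hmem : a₀ * u * v ∈ S.A := mul_mem (mul_mem ha₀ huW.1) hv.1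
        calc (x.1 * g)⁻¹ * a₀ * (x.1 * g)
            = c⁻¹ * (x.1⁻¹ * (g⁻¹ * a₀ * g) * x.1) * c := by rw [hxgc]; group
          _ = c⁻¹ * ((x.1⁻¹ * a₀ * x.1) * (x.1⁻¹ * v * x.1)) * c := by rw [hv']; group
          _ = c⁻¹ * (a₀ * u * v) * c := by rw [hxa, S.conj_W x.2.2 hv]
          _ = a₀ * u * v := by rw [mul_assoc, S.mem_C.mp hc _ hmem, inv_mul_cancel_left]
      rw [hA1, mul_assoc a₀ u v, S.comm u huW.1 v hv.1, ← mul_assoc a₀ v u] at hA2
      have hfix : g⁻¹ * u * g = u := mul_left_cancel hA2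
      calc u * g = g * (g⁻¹ * u * g) := by group
        _ = g * u := by rw [hfix]
    · intro a b h
      exact Subtype.ext (Subtype.ext (congrArg Subtype.val h :))
  have : (D ⊔ J).relIndex H ≤ D.relIndex H :=
    relIndex_le_of_le_left le_sup_left (D.subgroupOf H).index_ne_zero_of_finite
  omega

end Setup

end CfsgLib.FourGen42
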