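import Mathlib

/-!
The finite linear algebra over the field with two elements used for the four-generator theorem:
the sixteen linear maps of the plane, the conjugation by a transvection, and a vector valued
quadratic map whose value at each map lies in its kernel.
-/

namespace CfsgLib.FourGen42

set_option synthInstance.maxSize 4000

/-- The plane over the field with two elements. -/
abbrev V2 := ZMod 2 × ZMod 2

/-- A linear map of the plane, given by the images of the two basis vectors. -/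
abbrev M2 := V2 × V2

/-- Application of a linear map. -/
def app (M : M2) (v : V2) : V2 :=
  (v.1 * M.1.1 + v.2 * M.2.1, v.1 * M.1.2 + v.2 * M.2.2)

/-- The transvection fixing the first basis vector. -/
def shear (v : V2) : V2 := (v.1 + v.2, v.2)

/-- Conjugation by the transvection. -/
def twist (M : M2) : M2 := (shear M.1, shear (M.1 + M.2))

/-- The nilpotent map fixed by the conjugation. -/
def nilT : M2 := ((0, 0), (1, 0))

/-- Non-zero maps without a fixed vector other than zero. -/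
def Good (M : M2) : Prop := M ≠ 0 ∧ ∀ v : V2, app M v = v → v = 0

instance (M : M2) : Decidable (Good M) := inferInstanceAs (Decidable (_ ∧ _))

theorem good_nilT : Good nilT := by decide
theorem twist_nilT : twist nilT = nilT := by decide

theorem app_add (M : M2) (v w : V2) : app M (v + w) = app M v + app M w := by
  revert M v w; decide

theorem app_add_left (M N : M2) (v : V2) : app (M + N) v = app M v + app N v := by
  revert M N v; decide

theorem app_twist : ∀ (M : M2) (v : V2), app (twist M) v = shear (app M (shear v)) := by decide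

theorem ext_app : ∀ M N : M2, (∀ v, app M v = app N v) → M = N := by decide

theorem add_self (M : M2) : M + M = 0 := by revert M; decide

theorem twist_add : ∀ M N : M2, twist (M + N) = twist M + twist N := by decide

theorem good_not_idem : ∀ M : M2, Good M → ∃ v : V2, app M v + app M (app M v) ≠ 0 := by decide

/-- A map without an invariant line. -/
def omegaMap : M2 := ((1, 1), (1, 0))

theorem omegaMap_not_idem :
    ∀ v : V2, v ≠ 0 → app omegaMap v + app omegaMap (app omegaMap v) ≠ 0 := by decide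

set_option synthInstance.maxSize 4000 in
theorem V2_cases : ∀ a b v : V2, a ≠ 0 → b ≠ 0 → a ≠ b →
    v = 0 ∨ v = a ∨ v = b ∨ v = a + b := by
  decide

theorem card_le_two (S : Set V2) (h0 : (0 : V2) ∈ S) (hadd : ∀ a ∈ S, ∀ b ∈ S, a + b ∈ S)
    (hne : ∃ v, v ∉ S) : Nat.card S ≤ 2 := by
  obtain ⟨v, hv⟩ := hne
  have hsub : ∀ a ∈ S, ∀ b ∈ S, a ≠ 0 → b ≠ 0 → a = b := by
    intro a ha b hb ha0 hb0
    by_contra hab
    rcases V2_cases a b v ha0 hb0 hab with rfl | rfl | rfl | rfl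
    exacts [hv h0, hv ha, hv hb, hv (hadd a ha b hb)]
  rw [← show Nat.card Bool = 2 by simp]
  refine Nat.card_le_card_of_injective (fun s : S => decide (s.1 = 0)) ?_
  intro s t hst
  apply Subtype.ext
  by_cases hs : s.1 = 0 <;> by_cases ht : t.1 = 0 <;> simp [hs, ht] at hst ⊢
  exact hsub _ s.2 _ t.2 hs ht

variable (U : AddSubgroup M2)

theorem add_mem_of_not_mem (hU : 8 ≤ Nat.card U) {a b : M2} (ha : a ∉ U) (hb : b ∉ U) :
    a + b ∈ U := by
  have hidx : U.index = 2 := by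
    have h := U.card_mul_index
    rw [show Nat.card M2 = 16 by simp] at h
    have h1 : U.index ≠ 1 := fun e => ha (by rw [AddSubgroup.index_eq_one.mp e]; trivial)
    have h2 : U.index ≠ 0 := U.index_ne_zero_of_finite
    have := Nat.mul_le_mul_right U.index hU
    omega
  obtain ⟨c, hc⟩ := AddSubgroup.index_eq_two_iff.mp hidx
  rcases hc a with ⟨h1, -⟩ | ⟨h1, -⟩
  · rcases hc b with ⟨h2, -⟩ | ⟨h2, -⟩
    · have e : a + b = a + c + (b + c) := by
        rw [add_add_add_comm, add_self, add_zero]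
      rw [e]; exact add_mem h1 h2
    · exact absurd h2 hb
  · exact absurd h1 ha

theorem nilT_mem (hU : 8 ≤ Nat.card U) (htw : ∀ M ∈ U, twist M ∈ U) : nilT ∈ U := by
  by_contra hT
  have key : ∀ M : M2, M ∈ U → M + twist M = nilT → False := fun M hM e =>
    hT (e ▸ add_mem hM (htw M hM))
  by_cases h : (((1, 0), (0, 0)) : M2) ∈ U
  · exact key _ h (by decide)
  · have := add_mem_of_not_mem U hU h hT
    exact key _ this (by decide)

theorem exists_good (hU : 8 ≤ Nat.card U) : ∃ M ∈ U, Good M := by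
  by_contra hno
  push Not at hno
  have h : ∀ M : M2, Good M → M ∉ U := fun M hM hMU => hno M hMU hM
  have h1 := add_mem_of_not_mem U hU (h nilT good_nilT) (h ((0, 1), (0, 0)) (by decide))
  have h2 := add_mem_of_not_mem U hU (h omegaMap (by decide)) (h ((0, 1), (1, 1)) (by decide))
  have h3 := add_mem h1 h2
  exact h ((1, 1), (1, 1)) (by decide) (by
    have e : nilT + (((0, 1), (0, 0)) : M2) + (omegaMap + ((0, 1), (1, 1))) = ((1, 1), (1, 1)) := by decide
    rwa [e] at h3)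

theorem exists_singular (hU : 8 ≤ Nat.card U) :
    ∃ M ∈ U, M ≠ 0 ∧ ∃ v : V2, v ≠ 0 ∧ app M v = 0 := by
  by_cases h1 : (((1, 0), (0, 0)) : M2) ∈ U
  · exact ⟨_, h1, by decide, by decide⟩
  by_cases h2 : nilT ∈ U
  · exact ⟨_, h2, by decide, by decide⟩
  exact ⟨_, add_mem_of_not_mem U hU h1 h2, by decide, by decide⟩

theorem ker_comp1 (M : M2) (v : V2) (h : ∀ w, app M w = 0 → w.1 = 0) (hv : app M v = 0) :
    v.1 = 0 := h v hv

theorem ker_comp2 (M : M2) (v : V2) (h : ∀ w, app M w = 0 → w.2 = 0) (hv : app M v = 0) :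
    v.2 = 0 := h v hv

theorem eq_of_add {a b : ZMod 2} (h : a + b = 0) : a = b := by revert a b; decide

/-- A map of degree two whose value at each linear map lies in the kernel, and which does not
vanish at the nilpotent map, vanishes at no singular map. -/
theorem quad_ne_zero (q : M2 → V2) (hk : ∀ M, app M (q M) = 0)
    (hq : ∀ a b c, q (a + b + c) + q (a + b) + q (a + c) + q (b + c) + q a + q b + q c = 0)
    (hT : q nilT ≠ 0) (M : M2) (hM : M ≠ 0) (hs : ∃ v : V2, v ≠ 0 ∧ app M v = 0) : q M ≠ 0 := by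
  have l0 : (q ((0, 0), (1, 0))).1 = (q ((1, 0), (1, 0))).1 := by
    have h := congrArg Prod.fst (hq ((1, 0), (0, 0)) ((0, 1), (0, 0)) ((0, 0), (1, 0)))
    replace h : (q ((1, 1), (1, 0))).1 + (q ((1, 1), (0, 0))).1 + (q ((1, 0), (1, 0))).1 + (q ((0, 1), (1, 0))).1 + (q ((1, 0), (0, 0))).1 + (q ((0, 1), (0, 0))).1 + (q ((0, 0), (1, 0))).1 = 0 := h
    have z0 : (q ((1, 1), (1, 0))).1 = 0 := ker_comp1 _ _ (by decide) (hk _)
    have z1 : (q ((1, 1), (0, 0))).1 = 0 := ker_comp1 _ _ (by decide) (hk _)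
    have z2 : (q ((0, 1), (1, 0))).1 = 0 := ker_comp1 _ _ (by decide) (hk _)
    have z3 : (q ((1, 0), (0, 0))).1 = 0 := ker_comp1 _ _ (by decide) (hk _)
    have z4 : (q ((0, 1), (0, 0))).1 = 0 := ker_comp1 _ _ (by decide) (hk _)
    simp only [z0,z1,z2,z3,z4, zero_add, add_zero] at h
    first
      | exact eq_of_add h
      | exact (eq_of_add h).symm
  have l1 : (q ((0, 0), (1, 0))).1 = (q ((1, 1), (1, 1))).1 := by
    have h := congrArg Prod.fst (hq ((0, 1), (0, 0)) ((0, 0), (1, 0)) ((1, 0), (0, 1)))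
    replace h : (q ((1, 1), (1, 1))).1 + (q ((0, 1), (1, 0))).1 + (q ((1, 1), (0, 1))).1 + (q ((1, 0), (1, 1))).1 + (q ((0, 1), (0, 0))).1 + (q ((0, 0), (1, 0))).1 + (q ((1, 0), (0, 1))).1 = 0 := h
    have z0 : (q ((0, 1), (1, 0))).1 = 0 := ker_comp1 _ _ (by decide) (hk _)
    have z1 : (q ((1, 1), (0, 1))).1 = 0 := ker_comp1 _ _ (by decide) (hk _)
    have z2 : (q ((1, 0), (1, 1))).1 = 0 := ker_comp1 _ _ (by decide) (hk _)
    have z3 : (q ((0, 1), (0, 0))).1 = 0 := ker_comp1 _ _ (by decide) (hk _)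
    have z4 : (q ((1, 0), (0, 1))).1 = 0 := ker_comp1 _ _ (by decide) (hk _)
    simp only [z0,z1,z2,z3,z4, zero_add, add_zero] at h
    first
      | exact eq_of_add h
      | exact (eq_of_add h).symm
  have l2 : (q ((0, 0), (1, 0))).1 = (q ((0, 1), (0, 1))).1 := by
    have h := congrArg Prod.fst (hq ((1, 1), (0, 0)) ((0, 0), (1, 0)) ((1, 0), (0, 1)))
    replace h : (q ((0, 1), (1, 1))).1 + (q ((1, 1), (1, 0))).1 + (q ((0, 1), (0, 1))).1 + (q ((1, 0), (1, 1))).1 + (q ((1, 1), (0, 0))).1 + (q ((0, 0), (1, 0))).1 + (q ((1, 0), (0, 1))).1 = 0 := h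
    have z0 : (q ((0, 1), (1, 1))).1 = 0 := ker_comp1 _ _ (by decide) (hk _)
    have z1 : (q ((1, 1), (1, 0))).1 = 0 := ker_comp1 _ _ (by decide) (hk _)
    have z2 : (q ((1, 0), (1, 1))).1 = 0 := ker_comp1 _ _ (by decide) (hk _)
    have z3 : (q ((1, 1), (0, 0))).1 = 0 := ker_comp1 _ _ (by decide) (hk _)
    have z4 : (q ((1, 0), (0, 1))).1 = 0 := ker_comp1 _ _ (by decide) (hk _)
    simp only [z0,z1,z2,z3,z4, zero_add, add_zero] at h
    first
      | exact eq_of_add h
      | exact (eq_of_add h).symm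
  have l3 : (q ((1, 0), (0, 0))).2 = (q ((1, 0), (1, 0))).2 := by
    have h := congrArg Prod.snd (hq ((1, 0), (0, 0)) ((0, 0), (1, 0)) ((0, 0), (0, 1)))
    replace h : (q ((1, 0), (1, 1))).2 + (q ((1, 0), (1, 0))).2 + (q ((1, 0), (0, 1))).2 + (q ((0, 0), (1, 1))).2 + (q ((1, 0), (0, 0))).2 + (q ((0, 0), (1, 0))).2 + (q ((0, 0), (0, 1))).2 = 0 := h
    have z0 : (q ((1, 0), (1, 1))).2 = 0 := ker_comp2 _ _ (by decide) (hk _)
    have z1 : (q ((1, 0), (0, 1))).2 = 0 := ker_comp2 _ _ (by decide) (hk _)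
    have z2 : (q ((0, 0), (1, 1))).2 = 0 := ker_comp2 _ _ (by decide) (hk _)
    have z3 : (q ((0, 0), (1, 0))).2 = 0 := ker_comp2 _ _ (by decide) (hk _)
    have z4 : (q ((0, 0), (0, 1))).2 = 0 := ker_comp2 _ _ (by decide) (hk _)
    simp only [z0,z1,z2,z3,z4, zero_add, add_zero] at h
    first
      | exact eq_of_add h
      | exact (eq_of_add h).symm
  have l4 : (q ((0, 1), (0, 0))).2 = (q ((1, 0), (1, 0))).2 := by
    have h := congrArg Prod.snd (hq ((0, 1), (0, 0)) ((1, 0), (1, 0)) ((1, 0), (0, 1)))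
    replace h : (q ((0, 1), (1, 1))).2 + (q ((1, 1), (1, 0))).2 + (q ((1, 1), (0, 1))).2 + (q ((0, 0), (1, 1))).2 + (q ((0, 1), (0, 0))).2 + (q ((1, 0), (1, 0))).2 + (q ((1, 0), (0, 1))).2 = 0 := h
    have z0 : (q ((0, 1), (1, 1))).2 = 0 := ker_comp2 _ _ (by decide) (hk _)
    have z1 : (q ((1, 1), (1, 0))).2 = 0 := ker_comp2 _ _ (by decide) (hk _)
    have z2 : (q ((1, 1), (0, 1))).2 = 0 := ker_comp2 _ _ (by decide) (hk _)
    have z3 : (q ((0, 0), (1, 1))).2 = 0 := ker_comp2 _ _ (by decide) (hk _)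
    have z4 : (q ((1, 0), (0, 1))).2 = 0 := ker_comp2 _ _ (by decide) (hk _)
    simp only [z0,z1,z2,z3,z4, zero_add, add_zero] at h
    first
      | exact eq_of_add h
      | exact (eq_of_add h).symm
  have l5 : (q ((1, 1), (0, 0))).2 = (q ((1, 0), (1, 0))).2 := by
    have h := congrArg Prod.snd (hq ((1, 1), (0, 0)) ((1, 0), (1, 0)) ((0, 0), (0, 1)))
    replace h : (q ((0, 1), (1, 1))).2 + (q ((0, 1), (1, 0))).2 + (q ((1, 1), (0, 1))).2 + (q ((1, 0), (1, 1))).2 + (q ((1, 1), (0, 0))).2 + (q ((1, 0), (1, 0))).2 + (q ((0, 0), (0, 1))).2 = 0 := h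
    have z0 : (q ((0, 1), (1, 1))).2 = 0 := ker_comp2 _ _ (by decide) (hk _)
    have z1 : (q ((0, 1), (1, 0))).2 = 0 := ker_comp2 _ _ (by decide) (hk _)
    have z2 : (q ((1, 1), (0, 1))).2 = 0 := ker_comp2 _ _ (by decide) (hk _)
    have z3 : (q ((1, 0), (1, 1))).2 = 0 := ker_comp2 _ _ (by decide) (hk _)
    have z4 : (q ((0, 0), (0, 1))).2 = 0 := ker_comp2 _ _ (by decide) (hk _)
    simp only [z0,z1,z2,z3,z4, zero_add, add_zero] at h
    first
      | exact eq_of_add h
      | exact (eq_of_add h).symm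
  have l6 : (q ((1, 0), (1, 0))).1 = (q ((0, 0), (0, 1))).1 := by
    have h := congrArg Prod.fst (hq ((1, 1), (0, 0)) ((1, 0), (1, 0)) ((0, 0), (0, 1)))
    replace h : (q ((0, 1), (1, 1))).1 + (q ((0, 1), (1, 0))).1 + (q ((1, 1), (0, 1))).1 + (q ((1, 0), (1, 1))).1 + (q ((1, 1), (0, 0))).1 + (q ((1, 0), (1, 0))).1 + (q ((0, 0), (0, 1))).1 = 0 := h
    have z0 : (q ((0, 1), (1, 1))).1 = 0 := ker_comp1 _ _ (by decide) (hk _)
    have z1 : (q ((0, 1), (1, 0))).1 = 0 := ker_comp1 _ _ (by decide) (hk _)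
    have z2 : (q ((1, 1), (0, 1))).1 = 0 := ker_comp1 _ _ (by decide) (hk _)
    have z3 : (q ((1, 0), (1, 1))).1 = 0 := ker_comp1 _ _ (by decide) (hk _)
    have z4 : (q ((1, 1), (0, 0))).1 = 0 := ker_comp1 _ _ (by decide) (hk _)
    simp only [z0,z1,z2,z3,z4, zero_add, add_zero] at h
    first
      | exact eq_of_add h
      | exact (eq_of_add h).symm
  have l7 : (q ((1, 0), (1, 0))).1 = (q ((0, 0), (1, 1))).1 := by
    have h := congrArg Prod.fst (hq ((0, 1), (0, 0)) ((1, 0), (1, 0)) ((1, 0), (0, 1)))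
    replace h : (q ((0, 1), (1, 1))).1 + (q ((1, 1), (1, 0))).1 + (q ((1, 1), (0, 1))).1 + (q ((0, 0), (1, 1))).1 + (q ((0, 1), (0, 0))).1 + (q ((1, 0), (1, 0))).1 + (q ((1, 0), (0, 1))).1 = 0 := h
    have z0 : (q ((0, 1), (1, 1))).1 = 0 := ker_comp1 _ _ (by decide) (hk _)
    have z1 : (q ((1, 1), (1, 0))).1 = 0 := ker_comp1 _ _ (by decide) (hk _)
    have z2 : (q ((1, 1), (0, 1))).1 = 0 := ker_comp1 _ _ (by decide) (hk _)
    have z3 : (q ((0, 1), (0, 0))).1 = 0 := ker_comp1 _ _ (by decide) (hk _)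
    have z4 : (q ((1, 0), (0, 1))).1 = 0 := ker_comp1 _ _ (by decide) (hk _)
    simp only [z0,z1,z2,z3,z4, zero_add, add_zero] at h
    first
      | exact eq_of_add h
      | exact (eq_of_add h).symm
  have hT1 : (q ((0, 0), (1, 0))).1 ≠ 0 := fun h => hT (Prod.ext h
    (ker_comp2 _ _ (by decide) (hk _)))
  intro h0
  have hcases : ∀ M : M2, M ≠ 0 → (∃ v : V2, v ≠ 0 ∧ app M v = 0) →
      M = ((1, 0), (0, 0)) ∨ M = ((0, 1), (0, 0)) ∨ M = ((1, 1), (0, 0)) ∨
      M = ((0, 0), (1, 0)) ∨ M = ((1, 0), (1, 0)) ∨ M = ((0, 0), (0, 1)) ∨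
      M = ((0, 1), (0, 1)) ∨ M = ((0, 0), (1, 1)) ∨ M = ((1, 1), (1, 1)) := by decide
  have hc := hcases M hM hs
  have e5 : (q ((1, 0), (1, 0))).2 = (q ((1, 0), (1, 0))).1 := by
    have key : ∀ w : V2, app ((1, 0), (1, 0)) w = 0 → w.2 = w.1 := by decide
    exact key _ (hk _)
  have h5 : (q ((1, 0), (1, 0))).1 ≠ 0 := l0 ▸ hT1
  have h52 : (q ((1, 0), (1, 0))).2 ≠ 0 := e5.symm ▸ h5
  have z1 := congrArg Prod.fst h0
  have z2 := congrArg Prod.snd h0
  rcases hc with rfl | rfl | rfl | rfl | rfl | rfl | rfl | rfl | rfl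
  · exact h52 (l3 ▸ z2)
  · exact h52 (l4 ▸ z2)
  · exact h52 (l5 ▸ z2)
  · exact hT1 z1
  · exact h5 z1
  · exact h5 (l6.trans z1)
  · exact hT1 (l2.trans z1)
  · exact h5 (l7.trans z1)
  · exact hT1 (l1.trans z1)

end CfsgLib.FourGen42
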