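import Cfsg.Agent.FourGen42.Core
import Cfsg.Agent.FourGen42.Quad

/-!
Coordinates when the abelian subgroup is homocyclic of order sixteen: the action of the centraliser
of its involutions is recorded by a linear map of the plane.
-/

namespace CfsgLib.FourGen42

open Subgroup

namespace Setup

variable {P : Type*} [Group P] [Finite P] (S : Setup P)

/-- A basis of the abelian subgroup whose first square is central. -/
structure Frame where
  /-- The first generator. -/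
  a₁ : P
  /-- The second generator. -/
  a₂ : P
  mem₁ : a₁ ∈ S.A
  mem₂ : a₂ ∈ S.A
  ne₁ : a₁ ^ 2 ≠ 1
  central : ∀ g : P, g * a₁ ^ 2 = a₁ ^ 2 * g
  indep : a₂ ^ 2 ∉ zpowers (a₁ ^ 2)

theorem exists_frame (hQ : Nat.card S.Q = 4) : Nonempty S.Frame := by
  have hQW : S.Q = S.W := eq_of_le_of_card_ge S.Q_le_W (hQ ▸ S.card_W_le)
  have hW : S.W ≠ ⊥ := by
    intro h
    rw [hQW, h, card_bot] at hQ
    omega
  obtain ⟨z, hz, hz1, hzc, -⟩ := S.fixed_cases hW
  obtain ⟨w, hw, hwz⟩ : ∃ w ∈ S.W, w ∉ zpowers z := by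
    by_contra hno
    push Not at hno
    have h1 := card_le_of_le (show S.W ≤ zpowers z from hno)
    rw [Nat.card_zpowers, orderOf_eq_prime hz.2 hz1, ← hQW, hQ] at h1
    omega
  obtain ⟨a₁, h₁, rfl⟩ : z ∈ S.Q := hQW ▸ hz
  obtain ⟨a₂, h₂, rfl⟩ : w ∈ S.Q := hQW ▸ hw
  exact ⟨⟨a₁, a₂, h₁, h₂, hz1, hzc, hwz⟩⟩

variable {S}

theorem z2_cases : ∀ i : ZMod 2, i = 0 ∨ i = 1 := by decide

theorem v2_self : ∀ v : V2, v + v = 0 := by decide

theorem v2_cases : ∀ v : V2, v = (0, 0) ∨ v = (0, 1) ∨ v = (1, 0) ∨ v = (1, 1) := by decide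

namespace Frame

variable (F : S.Frame)

/-- The first involution. -/
def z : P := F.a₁ ^ 2

/-- The second involution. -/
def w : P := F.a₂ ^ 2

/-- The involutions of the abelian subgroup in coordinates. -/
def emb (v : V2) : P := F.z ^ v.1.val * F.w ^ v.2.val

theorem z_mem : F.z ∈ S.W := ⟨pow_mem F.mem₁ 2, by rw [Frame.z, ← pow_mul]; exact S.exp4 _ F.mem₁⟩

theorem w_mem : F.w ∈ S.W := ⟨pow_mem F.mem₂ 2, by rw [Frame.w, ← pow_mul]; exact S.exp4 _ F.mem₂⟩

theorem emb_mem (v : V2) : F.emb v ∈ S.W :=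
  mul_mem (pow_mem F.z_mem _) (pow_mem F.w_mem _)

theorem pow_val_add {x : P} (hx : x ^ 2 = 1) (i j : ZMod 2) :
    x ^ (i + j).val = x ^ i.val * x ^ j.val := by
  rw [← pow_add, ZMod.val_add, ← pow_eq_pow_mod _ hx]

theorem emb_add (v u : V2) : F.emb (v + u) = F.emb v * F.emb u := by
  have hc : Commute (F.w ^ v.2.val) (F.z ^ u.1.val) :=
    (show Commute F.w F.z from S.comm _ F.w_mem.1 _ F.z_mem.1).pow_pow _ _
  simp only [Frame.emb, Prod.fst_add, Prod.snd_add, pow_val_add F.z_mem.2, pow_val_add F.w_mem.2]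
  rw [mul_assoc, mul_assoc, ← mul_assoc (F.z ^ u.1.val), ← hc.eq]
  simp [mul_assoc]

theorem emb_zero : F.emb 0 = 1 := by simp [Frame.emb]

theorem emb_eq_one {v : V2} (h : F.emb v = 1) : v = 0 := by
  rcases v with ⟨i, j⟩
  rcases z2_cases i with rfl | rfl <;> rcases z2_cases j with rfl | rfl <;>
    simp [Frame.emb, Frame.z, Frame.w, ZMod.val_one] at h ⊢
  · exact F.indep (h ▸ one_mem _)
  · exact F.ne₁ h
  · refine F.indep ?_
    rw [eq_inv_of_mul_eq_one_right h]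
    exact inv_mem (mem_zpowers _)

theorem emb_injective : Function.Injective F.emb := fun v u h => by
  have h1 : F.emb (v + u) = 1 := by
    rw [F.emb_add, h, ← pow_two]; exact (F.emb_mem u).2
  have := F.emb_eq_one h1
  calc v = v + u + u := by rw [add_assoc, v2_self u, add_zero]
    _ = u := by rw [this, zero_add]

theorem emb_surj {x : P} (hx : x ∈ S.W) : ∃ v, F.emb v = x := by
  have hbij : Function.Bijective (fun v : V2 => (⟨F.emb v, F.emb_mem v⟩ : S.W)) := by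
    have hinj : Function.Injective (fun v : V2 => (⟨F.emb v, F.emb_mem v⟩ : S.W)) :=
      fun a b h => F.emb_injective (congrArg Subtype.val h)
    refine (Nat.bijective_iff_injective_and_card _).mpr ⟨hinj, ?_⟩
    have h1 := Nat.card_le_card_of_injective _ hinj
    have h2 := S.card_W_le
    simp at h1 ⊢
    omega
  obtain ⟨v, hv⟩ := hbij.2 ⟨x, hx⟩
  exact ⟨v, congrArg Subtype.val hv⟩

theorem card_W (F : S.Frame) : Nat.card S.W = 4 := by
  have h1 := Nat.card_le_card_of_injective (fun v : V2 => (⟨F.emb v, F.emb_mem v⟩ : S.W))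
    fun a b h => F.emb_injective (congrArg Subtype.val h)
  have h2 := S.card_W_le
  simp at h1
  omega

/-- The coordinates of a square. -/
noncomputable def sq (a : P) : V2 := Function.invFun F.emb (a ^ 2)

theorem emb_sq {a : P} (ha : a ∈ S.A) : F.emb (F.sq a) = a ^ 2 :=
  Function.invFun_eq (F.emb_surj ⟨pow_mem ha 2, by rw [← pow_mul]; exact S.exp4 a ha⟩)

theorem sq_eq {a : P} {v : V2} (h : a ^ 2 = F.emb v) : F.sq a = v := by
  rw [Frame.sq, h]; exact Function.leftInverse_invFun F.emb_injective v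

theorem sq_mul {a b : P} (ha : a ∈ S.A) (hb : b ∈ S.A) : F.sq (a * b) = F.sq a + F.sq b :=
  F.sq_eq (by rw [F.emb_add, F.emb_sq ha, F.emb_sq hb, Commute.mul_pow (S.comm a ha b hb)])

theorem sq_W {a : P} (ha : a ∈ S.W) : F.sq a = 0 := F.sq_eq (by rw [ha.2, F.emb_zero])

theorem sq_a₁ : F.sq F.a₁ = (1, 0) := F.sq_eq (by simp [Frame.emb, Frame.z, ZMod.val_one])

theorem sq_a₂ : F.sq F.a₂ = (0, 1) := F.sq_eq (by simp [Frame.emb, Frame.w, ZMod.val_one])

theorem mem_W_of_sq {a : P} (ha : a ∈ S.A) (h : F.sq a = 0) : a ∈ S.W :=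
  ⟨ha, by rw [← F.emb_sq ha, h, F.emb_zero]⟩

/-- The element with prescribed square. -/
def gen (v : V2) : P := F.a₁ ^ v.1.val * F.a₂ ^ v.2.val

theorem gen_mem (v : V2) : F.gen v ∈ S.A := mul_mem (pow_mem F.mem₁ _) (pow_mem F.mem₂ _)

theorem sq_gen (v : V2) : F.sq (F.gen v) = v := by
  rcases v with ⟨i, j⟩
  rcases z2_cases i with rfl | rfl <;> rcases z2_cases j with rfl | rfl <;>
    simp [Frame.gen, ZMod.val_one, F.sq_W (one_mem _), F.sq_a₁, F.sq_a₂, Prod.ext_iff,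
      F.sq_mul F.mem₁ F.mem₂]

/-- The linear map attached to an element centralising the involutions. -/
noncomputable def mat (x : P) : M2 :=
  (Function.invFun F.emb (F.a₁⁻¹ * (x⁻¹ * F.a₁ * x)),
   Function.invFun F.emb (F.a₂⁻¹ * (x⁻¹ * F.a₂ * x)))

theorem conj_mem_W {x : P} (hx : x ∈ S.N) {a : P} (ha : a ∈ S.A) :
    a⁻¹ * (x⁻¹ * a * x) ∈ S.W := by
  have hm := S.conj_inv_mem_A x ha
  refine ⟨mul_mem (inv_mem ha) hm, ?_⟩
  rw [Commute.mul_pow (S.comm _ (inv_mem ha) _ hm), conj_inv_sq,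
    S.conj_W hx ⟨pow_mem ha 2, by rw [← pow_mul]; exact S.exp4 a ha⟩, inv_pow, inv_mul_cancel]

theorem conj_gen {x : P} (hx : x ∈ S.N) (v : V2) :
    x⁻¹ * F.gen v * x = F.gen v * F.emb (app (F.mat x) v) := by
  have h1 : F.emb (F.mat x).1 = F.a₁⁻¹ * (x⁻¹ * F.a₁ * x) :=
    Function.invFun_eq (F.emb_surj (conj_mem_W hx F.mem₁))
  have h2 : F.emb (F.mat x).2 = F.a₂⁻¹ * (x⁻¹ * F.a₂ * x) :=
    Function.invFun_eq (F.emb_surj (conj_mem_W hx F.mem₂))
  have e1 : x⁻¹ * F.a₁ * x = F.a₁ * F.emb (F.mat x).1 := by rw [h1]; group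
  have e2 : x⁻¹ * F.a₂ * x = F.a₂ * F.emb (F.mat x).2 := by rw [h2]; group
  rcases v2_cases v with rfl | rfl | rfl | rfl
  · simp [Frame.gen, app, Prod.mk_zero_zero, F.emb_zero]
  · simp [Frame.gen, app, ZMod.val_one, e2]
  · simp [Frame.gen, app, ZMod.val_one, e1]
  · have happ : app (F.mat x) (1, 1) = (F.mat x).1 + (F.mat x).2 := by
      simp [app, Prod.ext_iff]
    simp only [Frame.gen, ZMod.val_one, pow_one, happ, F.emb_add]
    calc x⁻¹ * (F.a₁ * F.a₂) * x = (x⁻¹ * F.a₁ * x) * (x⁻¹ * F.a₂ * x) := by group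
      _ = F.a₁ * (F.emb (F.mat x).1 * F.a₂) * F.emb (F.mat x).2 := by
        rw [e1, e2]; simp [mul_assoc]
      _ = _ := by rw [S.comm _ (F.emb_mem _).1 _ F.mem₂]; simp [mul_assoc]

theorem conj_A {x : P} (hx : x ∈ S.N) {a : P} (ha : a ∈ S.A) :
    x⁻¹ * a * x = a * F.emb (app (F.mat x) (F.sq a)) := by
  have hr : (F.gen (F.sq a))⁻¹ * a ∈ S.W := by
    refine F.mem_W_of_sq (mul_mem (inv_mem (F.gen_mem _)) ha) ?_
    have h := F.sq_mul (F.gen_mem (F.sq a)) (mul_mem (inv_mem (F.gen_mem (F.sq a))) ha)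
    rw [mul_inv_cancel_left, F.sq_gen] at h
    exact left_eq_add.mp h
  obtain ⟨r, hrd⟩ : ∃ r, r = (F.gen (F.sq a))⁻¹ * a := ⟨_, rfl⟩
  rw [← hrd] at hr
  have hca : F.gen (F.sq a) * r = a := by rw [hrd, mul_inv_cancel_left]
  calc x⁻¹ * a * x = (x⁻¹ * F.gen (F.sq a) * x) * (x⁻¹ * r * x) := by rw [hrd]; group
    _ = F.gen (F.sq a) * (F.emb (app (F.mat x) (F.sq a)) * r) := by
      rw [F.conj_gen hx, S.conj_W hx hr, mul_assoc]
    _ = F.gen (F.sq a) * r * F.emb (app (F.mat x) (F.sq a)) := by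
      rw [S.comm _ (F.emb_mem _).1 _ (S.W_le_A hr), mul_assoc]
    _ = _ := by rw [hca]

theorem mat_eq {x : P} (hx : x ∈ S.N) {M : M2}
    (h : ∀ v, x⁻¹ * F.gen v * x = F.gen v * F.emb (app M v)) : F.mat x = M :=
  ext_app _ _ fun v => F.emb_injective (mul_left_cancel ((F.conj_gen hx v).symm.trans (h v)))

theorem mat_mul {x y : P} (hx : x ∈ S.N) (hy : y ∈ S.N) :
    F.mat (x * y) = F.mat x + F.mat y :=
  F.mat_eq (mul_mem hx hy) fun v => by
    calc (x * y)⁻¹ * F.gen v * (x * y) = y⁻¹ * (x⁻¹ * F.gen v * x) * y := by group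
      _ = (y⁻¹ * F.gen v * y) * (y⁻¹ * F.emb (app (F.mat x) v) * y) := by
        rw [F.conj_gen hx]; group
      _ = F.gen v * (F.emb (app (F.mat y) v) * F.emb (app (F.mat x) v)) := by
        rw [F.conj_gen hy, S.conj_W hy (F.emb_mem _), mul_assoc]
      _ = _ := by rw [← F.emb_add, ← app_add_left, add_comm]

theorem mat_inv {x : P} (hx : x ∈ S.N) : F.mat x⁻¹ = F.mat x := by
  have h1 : F.mat (1 : P) = 0 := F.mat_eq (one_mem _) fun v => by simp [app, F.emb_zero, Prod.mk_zero_zero]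
  have h := F.mat_mul (inv_mem hx) hx
  rw [inv_mul_cancel, h1] at h
  calc F.mat x⁻¹ = F.mat x⁻¹ + (F.mat x + F.mat x) := by rw [add_self, add_zero]
    _ = F.mat x := by rw [← add_assoc, ← h, zero_add]

theorem mat_zero_iff {x : P} (hx : x ∈ S.N) : F.mat x = 0 ↔ x ∈ S.C := by
  constructor
  · intro h
    refine S.mem_C.mpr fun a ha => ?_
    have h' := F.conj_A hx ha
    rw [h, show app (0 : M2) (F.sq a) = 0 by simp [app, Prod.mk_zero_zero], F.emb_zero, mul_one] at h'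
    calc a * x = x * (x⁻¹ * a * x) := by group
      _ = x * a := by rw [h']
  · intro h
    refine F.mat_eq hx fun v => ?_
    rw [show app (0 : M2) v = 0 by simp [app, Prod.mk_zero_zero], F.emb_zero, mul_one, mul_assoc,
      S.mem_C.mp h _ (F.gen_mem v), inv_mul_cancel_left]

theorem mem_C_of_mat_eq {x y : P} (hx : x ∈ S.N) (hy : y ∈ S.N) (h : F.mat x = F.mat y) :
    x⁻¹ * y ∈ S.C :=
  (F.mat_zero_iff (mul_mem (inv_mem hx) hy)).mp (by
    rw [F.mat_mul (inv_mem hx) hy, F.mat_inv hx, h, add_self])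

theorem conj_emb {g : P} (hg : g ∉ S.N) (v : V2) : g⁻¹ * F.emb v * g = F.emb (shear v) := by
  have hz : g⁻¹ * F.z * g = F.z := by
    rw [mul_assoc, Frame.z, ← F.central g, inv_mul_cancel_left]
  have hw : g⁻¹ * F.w * g = F.z * F.w := by
    obtain ⟨u, hu⟩ := F.emb_surj (S.conj_inv_mem_W g F.w_mem)
    rcases v2_cases u with rfl | rfl | rfl | rfl <;>
      simp [Frame.emb, ZMod.val_one] at hu
    · exfalso
      refine F.indep ?_
      have : F.w = 1 := by
        calc F.w = g * (g⁻¹ * F.w * g) * g⁻¹ := by group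
          _ = 1 := by rw [← hu]; group
      exact (show F.a₂ ^ 2 = 1 from this) ▸ one_mem _
    · exfalso
      refine hg (S.mem_N.mpr fun a ha => ?_)
      obtain ⟨t, rfl⟩ := F.emb_surj ha
      have c1 : Commute F.z g := (F.central g).symm
      have c2 : Commute F.w g := by
        show F.w * g = g * F.w
        calc F.w * g = g * (g⁻¹ * F.w * g) := by group
          _ = g * F.w := by rw [← hu]
      exact ((c1.pow_left _).mul_left (c2.pow_left _)).eq
    · exfalso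
      refine F.indep ?_
      have : F.w = F.z := by
        calc F.w = g * (g⁻¹ * F.w * g) * g⁻¹ := by group
          _ = g * F.z * g⁻¹ := by rw [← hu]
          _ = F.z := by rw [Frame.z, F.central g]; group
      exact (show F.a₂ ^ 2 = F.a₁ ^ 2 from this) ▸ mem_zpowers _
    · exact hu.symm
  have e : ∀ i j : ℕ, g⁻¹ * (F.z ^ i * F.w ^ j) * g = F.z ^ i * (F.z * F.w) ^ j := by
    intro i j
    have h1 : g⁻¹ * F.z ^ i * g = F.z ^ i := by
      have := (conj_pow (a := g⁻¹) (b := F.z) (i := i))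
      rw [inv_inv, hz] at this
      exact this.symm
    have h2 : g⁻¹ * F.w ^ j * g = (F.z * F.w) ^ j := by
      have := (conj_pow (a := g⁻¹) (b := F.w) (i := j))
      rw [inv_inv, hw] at this
      exact this.symm
    calc g⁻¹ * (F.z ^ i * F.w ^ j) * g = (g⁻¹ * F.z ^ i * g) * (g⁻¹ * F.w ^ j * g) := by group
      _ = _ := by rw [h1, h2]
  have hz2 : F.z * F.z = 1 := by rw [← pow_two]; exact F.z_mem.2
  rcases v2_cases v with rfl | rfl | rfl | rfl <;>
    simp [Frame.emb, shear, ZMod.val_one, e, hz, hw, show (1 : ZMod 2) + 1 = 0 from rfl]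
  · calc g⁻¹ * (F.z * F.w) * g = (g⁻¹ * F.z * g) * (g⁻¹ * F.w * g) := by group
      _ = F.w := by rw [hz, hw, ← mul_assoc, hz2, one_mul]

theorem mat_conj {g : P} (hg : g ∉ S.N) {x : P} (hx : x ∈ S.N) :
    F.mat (g⁻¹ * x * g) = twist (F.mat x) := by
  have hxg : g⁻¹ * x * g ∈ S.N := by simpa using S.N_normal.conj_mem x hx g⁻¹
  refine F.mat_eq hxg fun v => ?_
  have hb : g * F.gen v * g⁻¹ ∈ S.A := S.normal.conj_mem _ (F.gen_mem v) g
  have hg' : g⁻¹ ∉ S.N := fun h => hg (by simpa using inv_mem h)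
  have hsq : F.sq (g * F.gen v * g⁻¹) = shear v := by
    refine F.sq_eq ?_
    rw [← F.conj_emb hg' v, inv_inv, conj_pow, ← F.emb_sq (F.gen_mem v), F.sq_gen]
  calc (g⁻¹ * x * g)⁻¹ * F.gen v * (g⁻¹ * x * g)
      = g⁻¹ * (x⁻¹ * (g * F.gen v * g⁻¹) * x) * g := by group
    _ = F.gen v * (g⁻¹ * F.emb (app (F.mat x) (shear v)) * g) := by
      rw [F.conj_A hx hb, hsq]; group
    _ = _ := by rw [F.conj_emb hg, app_twist]

/-- The conjugates of `x` act in the same way as `x`. -/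
def Central (x : P) : Prop := ∀ g : P, F.mat (g⁻¹ * x * g) = F.mat x

theorem central_of {x : P} (hx : x ∈ S.N) (h : twist (F.mat x) = F.mat x ∨ S.N = ⊤) :
    F.Central x := by
  intro g
  by_cases hg : g ∈ S.N
  · rw [F.mat_mul (mul_mem (inv_mem hg) hx) hg, F.mat_mul (inv_mem hg) hx, F.mat_inv hg,
      add_right_comm, add_self, zero_add]
  · rcases h with h | h
    · rw [F.mat_conj hg hx, h]
    · exact absurd (h ▸ mem_top g) hg

end Frame

end Setup

end CfsgLib.FourGen42
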