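import Cfsg.Agent.FourGen42.Frame

/-!
The four-generator bound for a 2-group without normal elementary abelian subgroups of order eight.
-/

namespace CfsgLib.FourGen42

open Subgroup

namespace Setup.Frame

variable {P : Type*} [Group P] [Finite P] {S : Setup P} (F : S.Frame)

include F in
theorem sq_mem_N {x : P} (hx : x ∈ S.N) : x ^ 2 ∈ S.C :=
  (F.mat_zero_iff (pow_mem hx 2)).mp (by rw [pow_two, F.mat_mul hx hx, add_self])

theorem sq_eq_one_of_inverted {x d : P} (hx : x ∈ S.N) (hg : Good (F.mat x)) (hd : d ∈ S.C)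
    (h : x⁻¹ * d * x = d⁻¹) : d ^ 2 = 1 := by
  have key : ∀ e : P, e ∈ S.A → x⁻¹ * e * x = e⁻¹ → e ^ 2 = 1 := by
    intro e he h'
    rw [F.conj_A hx he] at h'
    have h2 : F.emb (F.sq e + app (F.mat x) (F.sq e)) = 1 := by
      rw [F.emb_add, F.emb_sq he, pow_two, mul_assoc, h', mul_inv_cancel]
    have h3 := F.emb_eq_one h2
    have h4 := hg.2 _ (eq_of_sub_eq_zero (by
      rw [sub_eq_add_neg, show -(F.sq e) = F.sq e from
        neg_eq_of_add_eq_zero_left (v2_self _), add_comm]; exact h3))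
    rw [← F.emb_sq he, h4, F.emb_zero]
  by_cases h4 : d ^ 4 = 1
  · exact key d (S.omega_mem hd h4) h
  · exfalso
    obtain ⟨n, hn8, hn4⟩ := Setup.exists_pow S.pGroup h4
    have he : ((d ^ n) ^ 2) ^ 4 = 1 := by rw [← pow_mul]; exact hn8
    refine hn4 ?_
    have hmem := S.omega_mem (pow_mem (pow_mem hd n) 2) he
    have := key _ hmem (by
      have e := conj_pow (a := x⁻¹) (b := d) (i := n * 2)
      rw [inv_inv, h] at e
      rw [← pow_mul, ← e, inv_pow])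
    rwa [← pow_mul] at this

theorem no_involution {y : P} (hy : y ∈ S.N) (hg : Good (F.mat y)) (hc : F.Central y)
    (h2 : y ^ 2 = 1) : False := by
  have hyi : y⁻¹ = y := inv_eq_of_mul_eq_one_right (by rw [← pow_two]; exact h2)
  have hcl : IsMulCommutative (closure (insert y (S.W : Set P))) := by
    refine isMulCommutative_closure ?_
    rintro a (rfl | ha) b (rfl | hb)
    · rfl
    · exact (S.comm_W hy hb).symm
    · exact S.comm_W hy ha
    · exact S.comm a ha.1 b hb.1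
  set E := closure (insert y (S.W : Set P))
  have hWE : S.W ≤ E := fun a ha => subset_closure (Or.inr ha)
  have hyE : y ∈ E := subset_closure (Or.inl rfl)
  have hEn : E.Normal := by
    refine ⟨fun b hb g => ?_⟩
    induction hb using closure_induction with
    | mem b hb =>
      rcases hb with rfl | hb
      · have hconj : g * b * g⁻¹ ∈ S.N := S.N_normal.conj_mem b hy g
        have hm : F.mat (g * b * g⁻¹) = F.mat b := by simpa using hc g⁻¹
        obtain ⟨δ, hδ, hδe⟩ : ∃ δ ∈ S.C, g * b * g⁻¹ = b * δ :=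
          ⟨_, F.mem_C_of_mat_eq hy hconj hm.symm, (mul_inv_cancel_left _ _).symm⟩
        have hsq : (b * δ) ^ 2 = 1 := by rw [← hδe, conj_pow, h2]; group
        have hinv : b⁻¹ * δ * b = δ⁻¹ := by
          rw [hyi]
          exact eq_inv_of_mul_eq_one_left (by
            calc b * δ * b * δ = (b * δ) ^ 2 := by rw [pow_two, mul_assoc]
              _ = 1 := hsq)
        rw [hδe]
        exact mul_mem hyE (hWE (S.omega_two hδ (F.sq_eq_one_of_inverted hy hg hδ hinv)))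
      · exact hWE (S.W_normal.conj_mem b hb g)
    | one => simp [one_mem]
    | mul a b _ _ ha hb =>
      have e : g * (a * b) * g⁻¹ = (g * a * g⁻¹) * (g * b * g⁻¹) := by group
      rw [e]; exact mul_mem ha hb
    | inv a _ ha =>
      have e : g * a⁻¹ * g⁻¹ = (g * a * g⁻¹)⁻¹ := by group
      rw [e]; exact inv_mem ha
  have hE2 : ∀ a ∈ E, a ^ 2 = 1 := by
    intro a ha
    induction ha using closure_induction with
    | mem b hb =>
      rcases hb with rfl | hb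
      · exact h2
      · exact hb.2
    | one => simp
    | mul a b hA hB ha hb =>
      rw [Commute.mul_pow (congrArg Subtype.val (mul_comm' (⟨a, hA⟩ : E) ⟨b, hB⟩)), ha, hb, one_mul]
    | inv a _ ha => rw [inv_pow, ha, inv_one]
  have hle := S.small E hEn hcl hE2
  have hEW := eq_of_le_of_card_ge hWE (F.card_W ▸ hle)
  have : y ∈ S.C := S.A_le_C (hEW ▸ hyE : y ∈ S.W).1
  exact hg.1 ((F.mat_zero_iff hy).mpr this)

theorem exists_involution {x : P} (hx : x ∈ S.N) (hg : Good (F.mat x)) {D R : Subgroup P}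
    (hD : D ≤ S.C) (hDc : ∀ a ∈ D, ∀ b ∈ D, a * b = b * a)
    (hnorm : ∀ d ∈ D, x⁻¹ * d * x ∈ D) (hR : ∀ d ∈ D, x⁻¹ * d * x * d ∈ R) (hRD : R ≤ D)
    (hidx : 4 ≤ R.relIndex D) (hx2 : x ^ 2 ∈ R) :
    ∃ γ ∈ D, (x * γ) ^ 2 = 1 := by
  let f : D →* D :=
    { toFun := fun d => ⟨x⁻¹ * d.1 * x * d.1, mul_mem (hnorm _ d.2) d.2⟩
      map_one' := by apply Subtype.ext; simp
      map_mul' := fun a b => by
        apply Subtype.ext
        show x⁻¹ * (a.1 * b.1) * x * (a.1 * b.1) =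
          (x⁻¹ * a.1 * x * a.1) * (x⁻¹ * b.1 * x * b.1)
        have hc := hDc _ a.2 _ (hnorm _ b.2)
        calc x⁻¹ * (a.1 * b.1) * x * (a.1 * b.1)
            = x⁻¹ * a.1 * x * ((x⁻¹ * b.1 * x) * a.1) * b.1 := by group
          _ = _ := by rw [← hc]; simp [mul_assoc] }
  have hker : Nat.card f.ker ≤ 4 := by
    refine le_trans (Nat.card_le_card_of_injective
      (fun d : f.ker => (⟨d.1.1, ?_⟩ : S.W)) ?_) S.card_W_le
    · have h : x⁻¹ * d.1.1 * x * d.1.1 = 1 := congrArg Subtype.val (MonoidHom.mem_ker.mp d.2)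
      exact S.omega_two (hD d.1.2) (F.sq_eq_one_of_inverted hx hg (hD d.1.2)
        (eq_inv_of_mul_eq_one_left h))
    · intro a b h
      exact Subtype.ext (Subtype.ext (congrArg Subtype.val h :))
  have hle : f.range ≤ R.subgroupOf D := by rintro _ ⟨d, rfl⟩; exact hR _ d.2
  have heq : f.range = R.subgroupOf D := by
    refine eq_of_le_of_card_ge hle ?_
    have h1 := card_mul_index (R.subgroupOf D)
    have h2 := card_mul_index f.ker
    rw [index_ker] at h2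
    have h3 : 4 ≤ (R.subgroupOf D).index := hidx
    nlinarith [Nat.zero_le (Nat.card f.range), Nat.zero_le (Nat.card (R.subgroupOf D))]
  have hmem : (⟨(x ^ 2)⁻¹, inv_mem (hRD hx2)⟩ : D) ∈ f.range := by
    rw [heq]; exact inv_mem hx2
  obtain ⟨γ, hγ⟩ := hmem
  refine ⟨γ.1, γ.2, ?_⟩
  have h : x⁻¹ * γ.1 * x * γ.1 = (x ^ 2)⁻¹ := congrArg Subtype.val hγ
  calc (x * γ.1) ^ 2 = x ^ 2 * (x⁻¹ * γ.1 * x * γ.1) := by simp [pow_two, mul_assoc]
    _ = 1 := by rw [h, mul_inv_cancel]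

theorem no_good {x : P} (hx : x ∈ S.N) (hg : Good (F.mat x)) (hc : F.Central x) {D R : Subgroup P}
    (hD : D ≤ S.C) (hDc : ∀ a ∈ D, ∀ b ∈ D, a * b = b * a)
    (hnorm : ∀ d ∈ D, x⁻¹ * d * x ∈ D) (hR : ∀ d ∈ D, x⁻¹ * d * x * d ∈ R) (hRD : R ≤ D)
    (hidx : 4 ≤ R.relIndex D) (hx2 : x ^ 2 ∈ R) : False := by
  obtain ⟨γ, hγ, h⟩ := F.exists_involution hx hg hD hDc hnorm hR hRD hidx hx2
  have hγN : γ ∈ S.N := S.C_le_N (hD hγ)
  have hm : F.mat (x * γ) = F.mat x := by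
    rw [F.mat_mul hx hγN, (F.mat_zero_iff hγN).mpr (hD hγ), add_zero]
  refine F.no_involution (mul_mem hx hγN) (hm ▸ hg) (fun g => ?_) h
  have hxg : g⁻¹ * x * g ∈ S.N := by simpa using S.N_normal.conj_mem x hx g⁻¹
  have hγg : g⁻¹ * γ * g ∈ S.C := S.conj_inv_mem_C g (hD hγ)
  rw [show g⁻¹ * (x * γ) * g = (g⁻¹ * x * g) * (g⁻¹ * γ * g) by group,
    F.mat_mul hxg (S.C_le_N hγg), (F.mat_zero_iff (S.C_le_N hγg)).mpr hγg, add_zero, hc g, hm]

/-- The squares of elements of order dividing eight of the centraliser, in coordinates. -/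
def imageEight : Set V2 := {v | ∃ c ∈ S.C, c ^ 8 = 1 ∧ F.sq (c ^ 2) = v}

theorem sq_sq_mem {c : P} (hc : c ∈ S.C) (h8 : c ^ 8 = 1) : c ^ 2 ∈ S.A :=
  S.omega_mem (pow_mem hc 2) (by rw [← pow_mul]; exact h8)

theorem prod_sq {a b : P} (ha : a ∈ S.C) (hb : b ∈ S.C) (ha8 : a ^ 8 = 1) :
    ∃ u ∈ S.W, b * a = a * b * u ∧ (a * b) ^ 2 = a ^ 2 * b ^ 2 * u := by
  have h := commutator_sq (S.pGroup.to_subgroup S.C) (S.fourCentral le_rfl)
    (x := (⟨a, ha⟩ : S.C)) (Subtype.ext (by simpa using ha8)) ⟨b, hb⟩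
  have hu' : (a⁻¹ * b⁻¹ * a * b) ^ 2 = 1 := by simpa using congrArg Subtype.val h
  obtain ⟨u, hu⟩ : ∃ u, u = (a⁻¹ * b⁻¹ * a * b)⁻¹ := ⟨_, rfl⟩
  have huW : u ∈ S.W := hu ▸ inv_mem (S.omega_two
    (mul_mem (mul_mem (mul_mem (inv_mem ha) (inv_mem hb)) ha) hb) hu')
  have e : b * a = a * b * u := by rw [hu]; group
  refine ⟨u, huW, e, ?_⟩
  have hub : u * b = b * u := S.comm_W (S.C_le_N hb) huW
  calc (a * b) ^ 2 = a * (b * a) * b := by simp [pow_two, mul_assoc]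
    _ = a * a * b * (u * b) := by rw [e]; simp [mul_assoc]
    _ = a ^ 2 * b ^ 2 * u := by rw [hub]; simp [pow_two, mul_assoc]

theorem imageEight_add : ∀ v ∈ F.imageEight, ∀ v' ∈ F.imageEight, v + v' ∈ F.imageEight := by
  rintro _ ⟨a, ha, ha8, rfl⟩ _ ⟨b, hb, hb8, rfl⟩
  obtain ⟨u, hu, -, e⟩ := prod_sq ha hb ha8
  have hA : a ^ 2 * b ^ 2 * u ∈ S.A :=
    mul_mem (mul_mem (sq_sq_mem ha ha8) (sq_sq_mem hb hb8)) hu.1
  refine ⟨a * b, mul_mem ha hb, ?_, ?_⟩
  · rw [show (8 : ℕ) = 2 * 4 from rfl, pow_mul, e]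
    exact S.exp4 _ hA
  · rw [e, F.sq_mul (mul_mem (sq_sq_mem ha ha8) (sq_sq_mem hb hb8)) hu.1, F.sq_W hu, add_zero,
      F.sq_mul (sq_sq_mem ha ha8) (sq_sq_mem hb hb8)]

theorem app_idem {x : P} (hx : x ∈ S.N) {c : P} (hc : c ∈ S.C) (h8 : c ^ 8 = 1)
    (hcomm : c * x ^ 2 = x ^ 2 * c) :
    app (F.mat x) (F.sq (c ^ 2)) + app (F.mat x) (app (F.mat x) (F.sq (c ^ 2))) = 0 := by
  set M := F.mat x
  set v := F.sq (c ^ 2)
  obtain ⟨d, hd⟩ : ∃ d, d = c⁻¹ * (x⁻¹ * c * x) := ⟨_, rfl⟩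
  have hdC : d ∈ S.C := hd ▸ mul_mem (inv_mem hc) (S.conj_inv_mem_C x hc)
  have hcd : x⁻¹ * c * x = c * d := by rw [hd]; group
  obtain ⟨u, hu, -, e⟩ := prod_sq hc hdC h8
  have h1 : c ^ 2 * d ^ 2 * u = c ^ 2 * F.emb (app M v) := by
    rw [← e, ← hcd, conj_inv_sq, F.conj_A hx (sq_sq_mem hc h8)]
  rw [mul_assoc] at h1
  have h2 : d ^ 2 * u = F.emb (app M v) := mul_left_cancel h1
  have hd4 : d ^ 4 = 1 := by
    have h3 : d ^ 2 ∈ S.W := by
      rw [eq_mul_inv_of_mul_eq h2]; exact mul_mem (F.emb_mem _) (inv_mem hu)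
    rw [show (4 : ℕ) = 2 * 2 from rfl, pow_mul]; exact h3.2
  have hu1 : u = 1 := by
    have hdA := S.omega_mem hdC hd4
    have := S.mem_C.mp hc d hdA
    have e' : (c * d) ^ 2 = c ^ 2 * d ^ 2 := by
      rw [Commute.mul_pow (show Commute c d from this.symm)]
    rw [e] at e'
    exact mul_eq_left.mp e'
  rw [hu1, mul_one] at h2
  have hdA := S.omega_mem hdC hd4
  have hsd : F.sq d = app M v := F.sq_eq h2
  refine F.emb_eq_one ?_
  have h3 : (x ^ 2)⁻¹ * c * x ^ 2 = c := by rw [mul_assoc, hcomm, inv_mul_cancel_left]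
  have h4 : (x ^ 2)⁻¹ * c * x ^ 2 = c * (F.emb (app M v) * F.emb (app M (app M v))) := by
    calc (x ^ 2)⁻¹ * c * x ^ 2 = x⁻¹ * (x⁻¹ * c * x) * x := by simp [pow_two, mul_assoc]
      _ = x⁻¹ * (c * d) * x := by rw [hcd]
      _ = (x⁻¹ * c * x) * (x⁻¹ * d * x) := by group
      _ = c * (d * d) * F.emb (app M (app M v)) := by
        rw [F.conj_A hx hdA, hsd, hcd]; simp [M, mul_assoc]
      _ = _ := by rw [← pow_two, h2, mul_assoc]
  rw [h3] at h4
  rw [F.emb_add]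
  exact mul_eq_left.mp h4.symm

include F in
theorem comm_of_not_full (hne : ∃ v, v ∉ F.imageEight) :
    ∀ a ∈ S.C, ∀ b ∈ S.C, a * b = b * a := by
  have h2 := S.pGroup.to_subgroup S.C
  have hD : FourCentral S.C := S.fourCentral le_rfl
  have := involutionGroup_normal hD
  set W1 := involutionGroup hD with hW1
  have hq1 := fourCentral_quotient h2 hD W1 hW1
  have := involutionGroup_normal hq1
  set W2 := involutionGroup hq1 with hW2
  have hp1 := h2.to_quotient W1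
  have hq2 := fourCentral_quotient hp1 hq1 W2 hW2
  let π : S.C →* (S.C ⧸ W1) ⧸ W2 := (QuotientGroup.mk' W2).comp (QuotientGroup.mk' W1)
  have hπ : Function.Surjective π :=
    (QuotientGroup.mk'_surjective W2).comp (QuotientGroup.mk'_surjective W1)
  have hkerA : ∀ c : S.C, π c = 1 ↔ c.1 ∈ S.A := by
    intro c
    show ((c : S.C ⧸ W1) : (S.C ⧸ W1) ⧸ W2) = 1 ↔ _
    rw [QuotientGroup.eq_one_iff, hW2, mem_involutionGroup, ← QuotientGroup.mk_pow,
      QuotientGroup.eq_one_iff, hW1, mem_involutionGroup, ← pow_mul, Subtype.ext_iff]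
    exact ⟨fun h => S.omega_mem c.2 (by simpa using h), fun h => by simpa using S.exp4 _ h⟩
  have hbound : Nat.card {y : (S.C ⧸ W1) ⧸ W2 // y ^ 2 = 1} ≤ 2 := by
    have hS : Nat.card F.imageEight ≤ 2 := card_le_two _
      ⟨1, one_mem _, one_pow 8, by rw [one_pow, F.sq_W (one_mem _)]⟩ F.imageEight_add hne
    refine le_trans ?_ hS
    choose g hg using fun y => hπ y
    have hprop : ∀ y : {y : (S.C ⧸ W1) ⧸ W2 // y ^ 2 = 1},
        (g y.1).1 ^ 8 = 1 := by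
      intro y
      have h : π ((g y.1) ^ 2) = 1 := by rw [map_pow, hg]; exact y.2
      have h' := S.exp4 _ ((hkerA _).mp h)
      rw [SubgroupClass.coe_pow, ← pow_mul] at h'
      exact h'
    refine Nat.card_le_card_of_injective
      (fun y => (⟨_, (g y.1).1, (g y.1).2, hprop y, rfl⟩ : F.imageEight)) ?_
    intro y y' h
    have h' : F.sq ((g y.1).1 ^ 2) = F.sq ((g y'.1).1 ^ 2) := congrArg Subtype.val h
    apply Subtype.ext
    rw [← hg y.1, ← hg y'.1, ← inv_mul_eq_one, ← map_inv, ← map_mul, hkerA]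
    set a := (g y.1).1
    set b := (g y'.1).1
    have ha8 : a⁻¹ ^ 8 = 1 := by rw [inv_pow, hprop y, inv_one]
    obtain ⟨u, hu, -, e⟩ := prod_sq (inv_mem (g y.1).2) (g y'.1).2 ha8
    refine S.omega_mem (mul_mem (inv_mem (g y.1).2) (g y'.1).2) ?_
    show (a⁻¹ * b) ^ 4 = 1
    have hA1 : a⁻¹ ^ 2 ∈ S.A := sq_sq_mem (inv_mem (g y.1).2) ha8
    have hA2 : b ^ 2 ∈ S.A := sq_sq_mem (g y'.1).2 (hprop y')
    have hz : F.sq (a⁻¹ ^ 2 * b ^ 2) = 0 := by
      have h1 := F.sq_mul hA1 (sq_sq_mem (g y.1).2 (hprop y))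
      rw [inv_pow, inv_mul_cancel, F.sq_W (one_mem _)] at h1
      rw [F.sq_mul hA1 hA2, ← h', inv_pow]
      exact h1.symm
    have hm : a⁻¹ ^ 2 * b ^ 2 * u ∈ S.W := mul_mem (F.mem_W_of_sq (mul_mem hA1 hA2) hz) hu
    rw [show (4 : ℕ) = 2 * 2 from rfl, pow_mul, e]
    exact hm.2
  obtain ⟨c₀, hc₀⟩ := exists_zpowers_eq_top (hp1.to_quotient W2) fun J hJ =>
    le_trans (index_le _ _ rfl (hp1.to_quotient W2) hq2 J hJ) hbound
  obtain ⟨c₁, rfl⟩ := hπ c₀
  have hform : ∀ a ∈ S.C, ∃ (i : ℤ) (t : P), t ∈ S.A ∧ a = c₁.1 ^ i * t := by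
    intro a ha
    have : π ⟨a, ha⟩ ∈ zpowers (π c₁) := by rw [hc₀]; exact mem_top _
    obtain ⟨i, hi⟩ := mem_zpowers_iff.mp this
    refine ⟨i, (c₁.1 ^ i)⁻¹ * a, ?_, (mul_inv_cancel_left _ _).symm⟩
    have := (hkerA ((c₁ ^ i)⁻¹ * ⟨a, ha⟩)).mp (by rw [map_mul, map_inv, map_zpow, hi, inv_mul_cancel])
    simpa using this
  intro a ha b hb
  obtain ⟨i, s, hs, rfl⟩ := hform a ha
  obtain ⟨j, t, ht, rfl⟩ := hform b hb
  have c1 : ∀ r ∈ S.A, ∀ k : ℤ, Commute r (c₁.1 ^ k) := fun r hr k =>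
    Commute.zpow_right (S.mem_C.mp c₁.2 r hr) k
  exact ((Commute.zpow_zpow_self c₁.1 i j).mul_right (c1 t ht i).symm).mul_left
    ((c1 s hs j).mul_right (S.comm s hs t ht))

theorem C_eq_A {x : P} (hx : x ∈ S.N) (hm : F.mat x = omegaMap) : S.C = S.A := by
  have hx2 := F.sq_mem_N hx
  have key : ∀ c ∈ S.C, c ^ 8 = 1 → c * x ^ 2 = x ^ 2 * c → c ^ 4 = 1 := by
    intro c hc h8 hcomm
    have hA := sq_sq_mem hc h8
    have h := F.app_idem hx hc h8 hcomm
    rw [hm] at h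
    by_contra h4
    refine omegaMap_not_idem _ (fun h0 => h4 ?_) h
    rw [show (4 : ℕ) = 2 * 2 from rfl, pow_mul]
    exact (F.mem_W_of_sq hA h0).2
  have hγ : x ^ 2 ∈ S.A := by
    refine S.omega_mem hx2 ?_
    by_contra h
    obtain ⟨n, h8, h4⟩ := Setup.exists_pow S.pGroup h
    exact h4 (key _ (pow_mem hx2 n) h8 (Commute.pow_self (x ^ 2) n).eq)
  refine le_antisymm (fun c hc => S.omega_mem hc ?_) S.A_le_C
  by_contra h
  obtain ⟨n, h8, h4⟩ := Setup.exists_pow S.pGroup h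
  exact h4 (key _ (pow_mem hc n) h8 (S.mem_C.mp (pow_mem hc n) _ hγ).symm)

/-- The images of a subgroup of the centraliser of the involutions, as linear maps. -/
def image (K : Subgroup P) (hK : K ≤ S.N) : AddSubgroup M2 where
  carrier := {M | ∃ k ∈ K, F.mat k = M}
  zero_mem' := ⟨1, one_mem _, (F.mat_zero_iff (one_mem _)).mpr (one_mem _)⟩
  add_mem' := by
    rintro _ _ ⟨a, ha, rfl⟩ ⟨b, hb, rfl⟩
    exact ⟨a * b, mul_mem ha hb, F.mat_mul (hK ha) (hK hb)⟩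
  neg_mem' := by
    rintro _ ⟨a, ha, rfl⟩
    exact ⟨a, ha, (neg_eq_of_add_eq_zero_left (add_self _)).symm⟩

theorem card_image (K : Subgroup P) (hK : K ≤ S.N) :
    S.C.relIndex K = Nat.card (F.image K hK) := by
  let f : K →* Multiplicative M2 :=
    { toFun := fun k => Multiplicative.ofAdd (F.mat k.1)
      map_one' := by
        show Multiplicative.ofAdd (F.mat 1) = 1
        rw [(F.mat_zero_iff (one_mem _)).mpr (one_mem _)]; rfl
      map_mul' := fun a b => by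
        show Multiplicative.ofAdd (F.mat (a.1 * b.1)) = _
        rw [F.mat_mul (hK a.2) (hK b.2)]; rfl }
  have hker : f.ker = S.C.subgroupOf K := by
    ext k
    rw [MonoidHom.mem_ker, mem_subgroupOf]
    show Multiplicative.ofAdd (F.mat k.1) = 1 ↔ _
    rw [← F.mat_zero_iff (hK k.2)]
    exact ofAdd_eq_one
  show (S.C.subgroupOf K).index = _
  rw [← hker, index_ker]
  refine Nat.card_congr ?_
  refine Equiv.ofBijective (fun y => ⟨Multiplicative.toAdd y.1, ?_⟩) ⟨?_, ?_⟩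
  · obtain ⟨k, hk⟩ := y.2
    exact ⟨k.1, k.2, by rw [← hk]; rfl⟩
  · intro a b h
    exact Subtype.ext (Multiplicative.toAdd.injective (congrArg Subtype.val h :))
  · rintro ⟨_, k, hk, rfl⟩
    exact ⟨⟨f ⟨k, hk⟩, ⟨k, hk⟩, rfl⟩, rfl⟩

theorem sq_ne_of_full (hfull : ∀ M : M2, ∃ x ∈ S.N, F.mat x = M) :
    ∀ x ∈ S.N, F.mat x ≠ 0 → (∃ v : V2, v ≠ 0 ∧ app (F.mat x) v = 0) → F.sq (x ^ 2) ≠ 0 := by
  obtain ⟨o, ho, hom⟩ := hfull omegaMap
  have hCA := F.C_eq_A ho hom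
  have hA : ∀ x ∈ S.N, x ^ 2 ∈ S.A := fun x hx => hCA ▸ F.sq_mem_N hx
  have hcomm : ∀ x ∈ S.N, ∀ y ∈ S.N, x⁻¹ * y⁻¹ * x * y ∈ S.A := by
    intro x hx y hy
    rw [← hCA]
    refine (F.mat_zero_iff (mul_mem (mul_mem (mul_mem (inv_mem hx) (inv_mem hy)) hx) hy)).mp ?_
    rw [F.mat_mul (mul_mem (mul_mem (inv_mem hx) (inv_mem hy)) hx) hy,
      F.mat_mul (mul_mem (inv_mem hx) (inv_mem hy)) hx, F.mat_mul (inv_mem hx) (inv_mem hy),
      F.mat_inv hx, F.mat_inv hy, add_right_comm (F.mat x) (F.mat y) (F.mat x), add_self, zero_add,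
      add_self]
  have hconjsq : ∀ x ∈ S.N, ∀ a ∈ S.A, F.sq (x⁻¹ * a * x) = F.sq a := fun x hx a ha => by
    rw [F.conj_A hx ha, F.sq_mul ha (F.emb_mem _).1, F.sq_W (F.emb_mem _), add_zero]
  let q : P → V2 := fun x => F.sq (x ^ 2)
  let κ : P → P → V2 := fun x y => F.sq (y⁻¹ * x⁻¹ * y * x)
  have hq : ∀ x ∈ S.N, ∀ y ∈ S.N, q (x * y) = q x + q y + κ x y := by
    intro x hx y hy
    have hc := hcomm y hy x hx
    have hconj := S.conj_inv_mem_A y hc
    have e : (x * y) ^ 2 = x ^ 2 * (y ^ 2 * (y⁻¹ * (y⁻¹ * x⁻¹ * y * x) * y)) := by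
      simp [pow_two, mul_assoc]
    show F.sq ((x * y) ^ 2) = F.sq (x ^ 2) + F.sq (y ^ 2) + F.sq (y⁻¹ * x⁻¹ * y * x)
    rw [e, F.sq_mul (hA x hx) (mul_mem (hA y hy) hconj), F.sq_mul (hA y hy) hconj,
      hconjsq y hy _ hc, add_assoc]
  have hκ : ∀ x ∈ S.N, ∀ x' ∈ S.N, ∀ y ∈ S.N, κ (x * x') y = κ x y + κ x' y := by
    intro x hx x' hx' y hy
    have hc1 := hcomm y hy x hx
    have hc2 := hcomm y hy x' hx'
    show F.sq _ = F.sq (y⁻¹ * x⁻¹ * y * x) + F.sq (y⁻¹ * x'⁻¹ * y * x')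
    rw [show y⁻¹ * (x * x')⁻¹ * y * (x * x') =
      (y⁻¹ * x'⁻¹ * y * x') * (x'⁻¹ * (y⁻¹ * x⁻¹ * y * x) * x') by group,
      F.sq_mul hc2 (S.conj_inv_mem_A _ hc1), hconjsq x' hx' _ hc1, add_comm]
  have hwd : ∀ x ∈ S.N, ∀ y ∈ S.N, F.mat x = F.mat y → q x = q y := by
    intro x hx y hy h
    have ha : x⁻¹ * y ∈ S.A := hCA ▸ F.mem_C_of_mat_eq hx hy h
    obtain ⟨a, ha', rfl⟩ : ∃ a ∈ S.A, y = x * a := ⟨_, ha, (mul_inv_cancel_left _ _).symm⟩
    have haN : a ∈ S.N := S.C_le_N (S.A_le_C ha')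
    have h0 : F.sq (a ^ 2) = 0 := F.sq_W ⟨pow_mem ha' 2, by rw [← pow_mul]; exact S.exp4 a ha'⟩
    rw [hq x hx a haN]
    show _ = _ + F.sq (a ^ 2) + F.sq (a⁻¹ * x⁻¹ * a * x)
    have h1 : F.sq (a⁻¹ * (x⁻¹ * a * x)) = 0 := F.sq_W (conj_mem_W hx ha')
    rw [show a⁻¹ * x⁻¹ * a * x = a⁻¹ * (x⁻¹ * a * x) by group, h0, h1, add_zero, add_zero]
  choose lift hliftN hliftM using hfull
  let Qf : M2 → V2 := fun M => q (lift M)
  have hQf : ∀ x ∈ S.N, Qf (F.mat x) = q x := fun x hx =>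
    hwd _ (hliftN _) x hx (hliftM _)
  have hk : ∀ M, app M (Qf M) = 0 := by
    intro M
    have h := F.conj_A (hliftN M) (hA _ (hliftN M))
    rw [hliftM M, show (lift M)⁻¹ * (lift M) ^ 2 * lift M = (lift M) ^ 2 by simp [pow_two, mul_assoc]]
      at h
    exact F.emb_eq_one (mul_eq_left.mp h.symm)
  have hid : ∀ a b c, Qf (a + b + c) + Qf (a + b) + Qf (a + c) + Qf (b + c) + Qf a + Qf b + Qf c = 0 := by
    intro a b c
    have ha := hliftN a
    have hb := hliftN b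
    have hc := hliftN c
    have eab : Qf (a + b) = q (lift a * lift b) := by
      conv_lhs => rw [← hliftM a, ← hliftM b, ← F.mat_mul ha hb]
      exact hQf _ (mul_mem ha hb)
    have eac : Qf (a + c) = q (lift a * lift c) := by
      conv_lhs => rw [← hliftM a, ← hliftM c, ← F.mat_mul ha hc]
      exact hQf _ (mul_mem ha hc)
    have ebc : Qf (b + c) = q (lift b * lift c) := by
      conv_lhs => rw [← hliftM b, ← hliftM c, ← F.mat_mul hb hc]
      exact hQf _ (mul_mem hb hc)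
    have eabc : Qf (a + b + c) = q (lift a * lift b * lift c) := by
      conv_lhs => rw [← hliftM a, ← hliftM b, ← hliftM c, ← F.mat_mul ha hb,
        ← F.mat_mul (mul_mem ha hb) hc]
      exact hQf _ (mul_mem (mul_mem ha hb) hc)
    rw [eab, eac, ebc, eabc, hq _ (mul_mem ha hb) _ hc, hq _ ha _ hb, hq _ ha _ hc, hq _ hb _ hc,
      hκ _ ha _ hb _ hc]
    show q (lift a) + q (lift b) + κ (lift a) (lift b) + q (lift c) +
        (κ (lift a) (lift c) + κ (lift b) (lift c)) +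
      (q (lift a) + q (lift b) + κ (lift a) (lift b)) +
      (q (lift a) + q (lift c) + κ (lift a) (lift c)) +
      (q (lift b) + q (lift c) + κ (lift b) (lift c)) + q (lift a) + q (lift b) + q (lift c) = 0
    generalize q (lift a) = p₁
    generalize q (lift b) = p₂
    generalize q (lift c) = p₃
    generalize κ (lift a) (lift b) = k₁
    generalize κ (lift a) (lift c) = k₂
    generalize κ (lift b) (lift c) = k₃
    have h := v2_self
    have : p₁ + p₂ + k₁ + p₃ + (k₂ + k₃) + (p₁ + p₂ + k₁) + (p₁ + p₃ + k₂) + (p₂ + p₃ + k₃) +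
        p₁ + p₂ + p₃ = (p₁ + p₁) + (p₁ + p₁) + (p₂ + p₂) + (p₂ + p₂) + (p₃ + p₃) + (p₃ + p₃) +
          (k₁ + k₁) + (k₂ + k₂) + (k₃ + k₃) := by abel
    rw [this]
    simp [h]
  have hT : Qf nilT ≠ 0 := by
    intro h
    have hxN := hliftN nilT
    have hm := hliftM nilT
    refine F.no_good (D := S.A) (R := S.W) hxN (by rw [hm]; exact good_nilT)
      (F.central_of hxN (Or.inl (by rw [hm, twist_nilT]))) S.A_le_C S.comm
      (fun d hd => S.conj_inv_mem_A _ hd) ?_ S.W_le_A ?_ (F.mem_W_of_sq (hA _ hxN) h)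
    · intro d hd
      rw [F.conj_A hxN hd, S.comm d hd _ (F.emb_mem _).1, mul_assoc, ← pow_two]
      exact mul_mem (F.emb_mem _) ⟨pow_mem hd 2, by rw [← pow_mul]; exact S.exp4 d hd⟩
    · let f : S.A →* Multiplicative V2 :=
        { toFun := fun a => Multiplicative.ofAdd (F.sq a.1)
          map_one' := by
            show Multiplicative.ofAdd (F.sq 1) = 1
            rw [F.sq_W (one_mem _)]; rfl
          map_mul' := fun a b => by
            show Multiplicative.ofAdd (F.sq (a.1 * b.1)) = _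
            rw [F.sq_mul a.2 b.2]; rfl }
      have hker : f.ker = S.W.subgroupOf S.A := by
        ext a
        rw [MonoidHom.mem_ker, mem_subgroupOf]
        exact ⟨fun h => F.mem_W_of_sq a.2 (Multiplicative.toAdd.injective.eq_iff.mpr h),
          fun h => by show Multiplicative.ofAdd (F.sq a.1) = 1; rw [F.sq_W h]; rfl⟩
      show 4 ≤ (S.W.subgroupOf S.A).index
      rw [← hker, index_ker]
      have hsurj : f.range = ⊤ := by
        refine eq_top_iff.mpr fun v _ => ?_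
        exact ⟨⟨F.gen (Multiplicative.toAdd v), F.gen_mem _⟩,
          congrArg Multiplicative.ofAdd (F.sq_gen _)⟩
      rw [hsurj, card_top]
      simp
  intro x hx hne hs
  have h := quad_ne_zero Qf hk hid hT (F.mat x) hne hs
  rwa [hQf x hx] at h

end Setup.Frame

end CfsgLib.FourGen42
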