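import Mathlib

/-!
Two-groups in which the elements of order dividing four are central, and Alperin's lemma on the
elements of order dividing four centralising a maximal abelian normal subgroup of exponent four.
-/

namespace CfsgLib.FourGen42

open Subgroup
open scoped Pointwise commutatorElement

variable {P : Type*} [Group P]

/-- The elements of order dividing four are central. -/
def FourCentral (D : Type*) [Group D] : Prop :=
  ∀ x g : D, x ^ 4 = 1 → x * g = g * x

theorem mem_of_step {A : Subgroup P} (hA4 : ∀ a ∈ A, a ^ 4 = 1) {x y : P}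
    (hxA : ∀ a ∈ A, a * x = x * a) (hyA : ∀ a ∈ A, a * y = y * a)
    (hc : y⁻¹ * x⁻¹ * y * x ∈ A) (hx : x ^ 4 = 1) (hxy : (x * y) ^ 4 = 1)
    (hy : ∀ n : ℕ, (y ^ n) ^ 4 = 1 → y ^ n ∈ A) : y ∈ A := by
  obtain ⟨c, hc_def⟩ : ∃ c, c = y⁻¹ * x⁻¹ * y * x := ⟨_, rfl⟩
  rw [← hc_def] at hc
  have cx : Commute c x := hxA c hc
  have cy : Commute c y := hyA c hc
  have hyx : y * x = x * (y * c) := by rw [hc_def]; group
  have h2 : (x * y) ^ 2 = x ^ 2 * y ^ 2 * c := by
    calc (x * y) ^ 2 = x * (y * x) * y := by rw [pow_two]; group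
      _ = x ^ 2 * y * (c * y) := by rw [hyx]; simp [pow_two, mul_assoc]
      _ = x ^ 2 * y * (y * c) := by rw [cy.eq]
      _ = x ^ 2 * y ^ 2 * c := by simp [pow_two, mul_assoc]
  have h3 : y ^ 2 * x = x * y ^ 2 * c ^ 2 := by
    calc y ^ 2 * x = y * (y * x) := by simp [pow_two, mul_assoc]
      _ = y * (x * (y * c)) := by rw [hyx]
      _ = (y * x) * (y * c) := by simp [mul_assoc]
      _ = x * y * (c * y) * c := by rw [hyx]; simp [mul_assoc]
      _ = x * y * (y * c) * c := by rw [cy.eq]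
      _ = x * y ^ 2 * c ^ 2 := by simp [pow_two, mul_assoc]
  have h4 : y ^ 2 * x ^ 2 = x ^ 2 * y ^ 2 := by
    calc y ^ 2 * x ^ 2 = (y ^ 2 * x) * x := by simp [pow_two, mul_assoc]
      _ = x * y ^ 2 * (c ^ 2 * x) := by rw [h3]; simp [mul_assoc]
      _ = x * y ^ 2 * (x * c ^ 2) := by rw [(cx.pow_left 2).eq]
      _ = x * (y ^ 2 * x) * c ^ 2 := by simp [mul_assoc]
      _ = x ^ 2 * y ^ 2 * c ^ 4 := by rw [h3]; simp [pow_succ, mul_assoc]
      _ = x ^ 2 * y ^ 2 := by rw [hA4 c hc, mul_one]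
  have hcm : Commute c (x ^ 2 * y ^ 2) := (cx.pow_right 2).mul_right (cy.pow_right 2)
  have h5 : y ^ 4 * c ^ 2 = 1 := by
    have e : (x * y) ^ 4 = ((x * y) ^ 2) ^ 2 := by rw [← pow_mul]
    rw [h2, hcm.symm.mul_pow, Commute.mul_pow (Commute.symm h4), ← pow_mul, ← pow_mul] at e
    rw [hxy, hx, one_mul] at e
    exact e.symm
  have h8 : (y ^ 2) ^ 4 = 1 := by
    have e : y ^ 4 = (c ^ 2)⁻¹ := eq_inv_of_mul_eq_one_left h5
    calc (y ^ 2) ^ 4 = (y ^ 4) ^ 2 := by rw [← pow_mul, ← pow_mul]
      _ = ((c ^ 2) ^ 2)⁻¹ := by rw [e, inv_pow]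
      _ = 1 := by rw [← pow_mul, hA4 c hc, inv_one]
  have h6 := hxA _ (hy 2 h8)
  have h7 : c ^ 2 = 1 := by
    rw [h3] at h6
    exact mul_eq_left.mp h6
  have h9 : (y ^ 1) ^ 4 = 1 := by rw [pow_one]; rw [h7, mul_one] at h5; exact h5
  simpa using hy 1 h9

/-- Alperin: a maximal abelian normal subgroup of exponent four of a nilpotent group contains all
elements of order dividing four which centralise it. -/
theorem omega_centralizer [Finite P] [Group.IsNilpotent P] (A : Subgroup P) (hAn : A.Normal)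
    (hAc : ∀ a ∈ A, ∀ b ∈ A, a * b = b * a) (hA4 : ∀ a ∈ A, a ^ 4 = 1)
    (hmax : ∀ B : Subgroup P, B.Normal → (∀ a ∈ B, ∀ b ∈ B, a * b = b * a) →
      (∀ a ∈ B, a ^ 4 = 1) → A ≤ B → B ≤ A)
    (x : P) (hxA : ∀ a ∈ A, a * x = x * a) (hx : x ^ 4 = 1) : x ∈ A := by
  by_contra hbad
  have hC : (centralizer (A : Set P)).Normal := inferInstance
  classical
  let S : Set (Subgroup P) := {K | K.Normal ∧ A ≤ K ∧ K ≤ centralizer (A : Set P) ∧
    ∃ y ∈ K, y ^ 4 = 1 ∧ y ∉ A}
  have hCS : centralizer (A : Set P) ∈ S := by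
    refine ⟨hC, ?_, le_rfl, x, ?_, hx, hbad⟩
    · exact fun a ha => mem_centralizer_iff.mpr fun b hb => hAc b hb a ha
    · exact mem_centralizer_iff.mpr fun b hb => hxA b hb
  obtain ⟨K, hKmin⟩ := (Set.toFinite S).exists_minimal ⟨_, hCS⟩
  obtain ⟨⟨hKn, hAK, hKC, y, hyK, hy4, hyA⟩, hmin⟩ := hKmin
  let L : Subgroup P := A ⊔ ⁅K, (⊤ : Subgroup P)⁆
  have hLK : L ≤ K := sup_le hAK (commutator_le_left K ⊤)
  have hLn : L.Normal := inferInstance
  have hLne : ¬ K ≤ L := by
    intro hKL
    have key : ∀ n, K ≤ A ⊔ (⊤ : Subgroup P).lowerCentralSeries n := by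
      intro n
      induction n with
      | zero => simp
      | succ n ih =>
        refine le_trans hKL (sup_le le_sup_left ?_)
        rw [commutator_le]
        intro k hk g hg
        have hk' := ih hk
        have hk2 : k ∈ (A : Set P) * ((⊤ : Subgroup P).lowerCentralSeries n : Set P) := by
          rw [← mul_normal]
          exact hk'
        obtain ⟨a, ha, l, hl, rfl⟩ := hk2
        have e : ⁅a * l, g⁆ = a * ⁅l, g⁆ * (g * a⁻¹ * g⁻¹) := by
          simp [commutatorElement_def, mul_assoc]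
        rw [e]
        refine mul_mem (mul_mem ?_ ?_) ?_
        · exact le_sup_left (b := (⊤ : Subgroup P).lowerCentralSeries (n + 1)) ha
        · refine le_sup_right (a := A) ?_
          rw [Subgroup.lowerCentralSeries_succ]
          exact commutator_mem_commutator hl hg
        · exact le_sup_left (b := (⊤ : Subgroup P).lowerCentralSeries (n + 1))
            (hAn.conj_mem _ (inv_mem ha) g)
    have := key (Group.nilpotencyClass P)
    rw [Subgroup.lowerCentralSeries_nilpotencyClass, sup_bot_eq] at this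
    exact hyA (this hyK)
  have hsmall : ∀ z ∈ L, z ^ 4 = 1 → z ∈ A := by
    intro z hz hz4
    by_contra hzA
    exact hLne (hmin ⟨hLn, le_sup_left, hLK.trans hKC, z, hz, hz4, hzA⟩ hLK)
  have hcomK : ∀ z ∈ K, ∀ a ∈ A, a * z = z * a := fun z hz a ha =>
    mem_centralizer_iff.mp (hKC hz) a ha
  have hyL : ∀ g : P, y⁻¹ * g⁻¹ * y * g ∈ L := by
    intro g
    have : ⁅y⁻¹, g⁻¹⁆ ∈ L :=
      le_sup_right (a := A) (commutator_mem_commutator (inv_mem hyK) (mem_top _))
    simpa [commutatorElement_def] using this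
  have hconj : ∀ g : P, y * (y⁻¹ * g⁻¹ * y * g) = g⁻¹ * y * g := fun g => by group
  have hstep : ∀ g : P,
      (y⁻¹ * g⁻¹ * y * g)⁻¹ * y⁻¹ * (y⁻¹ * g⁻¹ * y * g) * y ∈ A →
      y⁻¹ * g⁻¹ * y * g ∈ A := by
    intro g hg
    refine mem_of_step hA4 (hcomK y hyK) (hcomK _ (hLK (hyL g))) hg hy4 ?_
      (fun n hn => hsmall _ (pow_mem (hyL g) n) hn)
    have e := conj_pow (a := g⁻¹) (b := y) (i := 4)
    rw [inv_inv, hy4] at e
    rw [hconj g, e]
    group
  have claim : ∀ m n, Group.nilpotencyClass P ≤ n + m → ∀ k ∈ L,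
      k ∈ (⊤ : Subgroup P).lowerCentralSeries n → y⁻¹ * k⁻¹ * y * k ∈ A := by
    intro m
    induction m with
    | zero =>
      intro n hn k _ hk
      have hk1 : k = 1 := by
        have := (Subgroup.lowerCentralSeries_antitone (S := (⊤ : Subgroup P))) (by omega : Group.nilpotencyClass P ≤ n) hk
        rwa [Subgroup.lowerCentralSeries_nilpotencyClass, mem_bot] at this
      simp [hk1, one_mem]
    | succ m ih =>
      intro n hn k hkL hk
      apply hstep
      have hd : y⁻¹ * k⁻¹ * y * k ∈ (⊤ : Subgroup P).lowerCentralSeries (n + 1) := by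
        rw [Subgroup.lowerCentralSeries_succ]
        have : ⁅k⁻¹, y⁆ ∈ ⁅(⊤ : Subgroup P).lowerCentralSeries n, (⊤ : Subgroup P)⁆ :=
          commutator_mem_commutator (inv_mem hk) (mem_top _)
        have hn' : Subgroup.Normal ⁅(⊤ : Subgroup P).lowerCentralSeries n, (⊤ : Subgroup P)⁆ := inferInstance
        have := hn'.conj_mem _ this y⁻¹
        simpa [commutatorElement_def, mul_assoc] using this
      have h1 := ih (n + 1) (by omega) _ (hyL k) hd
      simpa [mul_assoc] using inv_mem h1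
  have hall : ∀ g : P, y⁻¹ * g⁻¹ * y * g ∈ A := by
    intro g
    apply hstep
    have h1 := claim (Group.nilpotencyClass P) 0 (by omega) _ (hyL g) (mem_top _)
    simpa [mul_assoc] using inv_mem h1
  let B : Subgroup P := closure (insert y (A : Set P))
  have hBc : IsMulCommutative B := by
    refine isMulCommutative_closure ?_
    rintro a (rfl | ha) b (rfl | hb)
    · rfl
    · exact (hcomK _ hyK b hb).symm
    · exact hcomK _ hyK a ha
    · exact hAc a ha b hb
  have hBcm : ∀ a ∈ B, ∀ b ∈ B, a * b = b * a := fun a ha b hb =>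
    congrArg Subtype.val (mul_comm' (⟨a, ha⟩ : B) ⟨b, hb⟩)
  have hAB : A ≤ B := fun a ha => subset_closure (Or.inr ha)
  have hBn : B.Normal := by
    refine ⟨fun b hb g => ?_⟩
    induction hb using closure_induction with
    | mem b hb =>
      rcases hb with rfl | hb
      · have e : g * b * g⁻¹ = b * (b⁻¹ * (g⁻¹)⁻¹ * b * g⁻¹) := by group
        rw [e]
        exact mul_mem (subset_closure (Or.inl rfl)) (hAB (hall g⁻¹))
      · exact hAB (hAn.conj_mem b hb g)
    | one => simp [one_mem]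
    | mul a b _ _ ha hb =>
      have e : g * (a * b) * g⁻¹ = (g * a * g⁻¹) * (g * b * g⁻¹) := by group
      rw [e]; exact mul_mem ha hb
    | inv a _ ha =>
      have e : g * a⁻¹ * g⁻¹ = (g * a * g⁻¹)⁻¹ := by group
      rw [e]; exact inv_mem ha
  have hB4 : ∀ a ∈ B, a ^ 4 = 1 := by
    intro a ha
    induction ha using closure_induction with
    | mem b hb =>
      rcases hb with rfl | hb
      · exact hy4
      · exact hA4 b hb
    | one => simp
    | mul a b hA hB ha hb => rw [Commute.mul_pow (hBcm a hA b hB), ha, hb, one_mul]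
    | inv a _ ha => rw [inv_pow, ha, inv_one]
  exact hyA (hmax B hBn hBcm hB4 hAB (subset_closure (Or.inl rfl)))

variable {D : Type*} [Group D]

/-- The elements of order dividing two. -/
def involutionGroup (hD : FourCentral D) : Subgroup D where
  carrier := {x | x ^ 2 = 1}
  one_mem' := by simp
  mul_mem' {a b} ha hb := by
    have ha4 : a ^ 4 = 1 := by rw [show (4 : ℕ) = 2 * 2 from rfl, pow_mul, ha, one_pow]
    show (a * b) ^ 2 = 1
    rw [Commute.mul_pow (hD a b ha4), ha, hb, one_mul]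
  inv_mem' {a} ha := by
    show a⁻¹ ^ 2 = 1
    rw [inv_pow, ha, inv_one]

theorem mem_involutionGroup (hD : FourCentral D) {x : D} :
    x ∈ involutionGroup hD ↔ x ^ 2 = 1 := Iff.rfl

theorem involutionGroup_normal (hD : FourCentral D) : (involutionGroup hD).Normal :=
  ⟨fun x hx g => by
    show (g * x * g⁻¹) ^ 2 = 1
    rw [conj_pow, (mem_involutionGroup hD).mp hx]; group⟩

theorem commutator_sq (h2 : IsPGroup 2 D) (hD : FourCentral D) {x : D} (hx : x ^ 8 = 1) (g : D) :
    (x⁻¹ * g⁻¹ * x * g) ^ 2 = 1 := by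
  obtain ⟨c, hc⟩ : ∃ c, c = x⁻¹ * g⁻¹ * x * g := ⟨_, rfl⟩
  rw [← hc]
  have hx4 : (x ^ 2) ^ 4 = 1 := by rw [← pow_mul]; exact hx
  have hsq : (x * c) ^ 2 = x ^ 2 := by
    have e : x * c = g⁻¹ * x * g⁻¹⁻¹ := by rw [hc]; group
    rw [e, conj_pow, inv_inv, mul_assoc, hD _ g hx4, inv_mul_cancel_left]
  have h1 : x⁻¹ * c * x = c⁻¹ := by
    have e : x * (c * x * c) = x * x := by
      calc x * (c * x * c) = (x * c) ^ 2 := by simp [pow_two, mul_assoc]
        _ = x * x := by rw [hsq, pow_two]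
    have e2 : c * x * c = x := mul_left_cancel e
    calc x⁻¹ * c * x = x⁻¹ * (c * x * c) * c⁻¹ := by group
      _ = c⁻¹ := by rw [e2]; group
  have hpow : ∀ n : ℕ, x⁻¹ * c ^ n * x = (c ^ n)⁻¹ := by
    intro n
    have := conj_pow (a := x⁻¹) (b := c) (i := n)
    rw [inv_inv, h1, inv_pow] at this
    exact this.symm
  obtain ⟨m, hm⟩ := h2 c
  by_cases hm2 : c ^ 4 = 1
  · have e : c⁻¹ = c := by rw [← h1, mul_assoc, hD c x hm2, inv_mul_cancel_left]
    calc c ^ 2 = c⁻¹ * c := by rw [e, pow_two]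
      _ = 1 := inv_mul_cancel c
  · exfalso
    have hex : ∃ n : ℕ, c ^ 2 ^ n = 1 := ⟨m, hm⟩
    classical
    obtain ⟨k, hk, hk'⟩ : ∃ k, c ^ 2 ^ k = 1 ∧ ∀ j < k, c ^ 2 ^ j ≠ 1 :=
      ⟨Nat.find hex, Nat.find_spec hex, fun j hj => Nat.find_min hex hj⟩
    have hk3 : 3 ≤ k := by
      by_contra hlt
      refine hm2 ?_
      have : (2 : ℕ) ^ k ∣ 4 := pow_dvd_pow 2 (by omega : k ≤ 2)
      obtain ⟨l, hl⟩ := this
      rw [hl, pow_mul, hk, one_pow]
    obtain ⟨k, rfl⟩ : ∃ j, k = j + 3 := ⟨k - 3, by omega⟩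
    set d := c ^ 2 ^ k with hd
    have hd8 : (d ^ 2) ^ 4 = 1 := by
      rw [hd, ← pow_mul, ← pow_mul]; rw [show 2 ^ k * (2 * 4) = 2 ^ (k + 3) by ring]; exact hk
    have hd4 : (d ^ 2) ^ 2 ≠ 1 := by
      rw [hd, ← pow_mul, ← pow_mul, show 2 ^ k * (2 * 2) = 2 ^ (k + 2) by ring]
      exact hk' _ (by omega)
    refine hd4 ?_
    have e : (d ^ 2)⁻¹ = d ^ 2 := by
      have := hpow (2 ^ k * 2)
      rw [pow_mul, ← hd] at this
      rw [← this, mul_assoc, hD _ x hd8, inv_mul_cancel_left]
    calc (d ^ 2) ^ 2 = (d ^ 2)⁻¹ * d ^ 2 := by rw [e, pow_two (d ^ 2)]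
      _ = 1 := inv_mul_cancel _

theorem fourCentral_quotient (h2 : IsPGroup 2 D) (hD : FourCentral D) (W : Subgroup D) [W.Normal]
    (hW : W = involutionGroup hD) : FourCentral (D ⧸ W) := by
  intro a b ha
  induction a using QuotientGroup.induction_on with
  | _ x =>
  induction b using QuotientGroup.induction_on with
  | _ g =>
  rw [← QuotientGroup.mk_pow, QuotientGroup.eq_one_iff, hW, mem_involutionGroup, ← pow_mul] at ha
  rw [← QuotientGroup.mk_mul, ← QuotientGroup.mk_mul, QuotientGroup.eq, hW, mem_involutionGroup]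
  have h := commutator_sq h2 hD ha g
  have e2 : (x * g)⁻¹ * (g * x) = g⁻¹ * x⁻¹ * g * x := by group
  rw [e2]
  have e3 : g⁻¹ * x⁻¹ * g * x = (x⁻¹ * g⁻¹ * x * g)⁻¹ := by group
  rw [e3, inv_pow, h, inv_one]

theorem normal_of_sq (J : Subgroup D) (hJ : ∀ d : D, d ^ 2 ∈ J) : J.Normal :=
  ⟨fun j hj g => by
    have e : g * j * g⁻¹ = (g * j) ^ 2 * j⁻¹ * (g ^ 2)⁻¹ := by simp [pow_two, mul_assoc]
    rw [e]
    exact mul_mem (mul_mem (hJ _) (inv_mem hj)) (inv_mem (hJ _))⟩

universe u

/-- In a 2-group whose elements of order dividing four are central, a subgroup containing all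
squares has index at most the number of elements of order dividing two. -/
theorem index_le (n : ℕ) : ∀ (D : Type u) [Group D] [Finite D], Nat.card D = n → IsPGroup 2 D →
    FourCentral D → ∀ J : Subgroup D, (∀ d : D, d ^ 2 ∈ J) →
      J.index ≤ Nat.card {x : D // x ^ 2 = 1} := by
  induction n using Nat.strong_induction_on with
  | _ n ih =>
  intro D _ _ hn h2 hD J hJ
  have := involutionGroup_normal hD
  classical
  by_cases hWJ : involutionGroup hD ≤ J
  · by_cases hbot : involutionGroup hD = ⊥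
    · have hsub : Subsingleton D := by
        by_contra hns
        rw [not_subsingleton_iff_nontrivial] at hns
        have := hns
        have : Fact (Nat.Prime 2) := ⟨Nat.prime_two⟩
        have hdvd : 2 ∣ Nat.card D := by
          obtain ⟨k, hk⟩ := IsPGroup.iff_card.mp h2
          rcases k with _ | k
          · have := Finite.one_lt_card (α := D)
            simp [hk] at this
          · exact ⟨2 ^ k, by rw [hk, pow_succ']⟩
        obtain ⟨x, hx⟩ := exists_prime_orderOf_dvd_card' 2 hdvd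
        have hmem : x ∈ involutionGroup hD := by
          show x ^ 2 = 1
          rw [← hx]; exact pow_orderOf_eq_one x
        rw [hbot, mem_bot] at hmem
        simp [hmem] at hx
      have h1 : J.index = 1 := index_eq_one.mpr (Subsingleton.elim _ _)
      rw [h1]
      have : Nonempty {x : D // x ^ 2 = 1} := ⟨⟨1, one_pow 2⟩⟩
      exact Nat.card_pos
    · set W := involutionGroup hD with hW
      have hlt : Nat.card (D ⧸ W) < n := by
        have hmul := card_eq_card_quotient_mul_card_subgroup W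
        have h1 : 1 < Nat.card W := W.one_lt_card_iff_ne_bot.mpr hbot
        have h0 : 0 < Nat.card (D ⧸ W) := Nat.card_pos
        rw [← hn]
        nlinarith
      have hq := fourCentral_quotient h2 hD W hW
      have h := ih _ hlt (D ⧸ W) rfl (h2.to_quotient W) hq (J.map (QuotientGroup.mk' W))
        (fun d => by
          induction d using QuotientGroup.induction_on with
          | _ d => exact ⟨d ^ 2, hJ d, rfl⟩)
      rw [index_map_eq _ (QuotientGroup.mk'_surjective W)
        (by rw [QuotientGroup.ker_mk']; exact hWJ)] at h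
      refine le_trans h ?_
      have key : ∀ q : {y : D ⧸ W // y ^ 2 = 1}, ∃ x : D, (x : D ⧸ W) = q.1 ∧ (x ^ 2) ^ 2 = 1 := by
        rintro ⟨y, hy⟩
        induction y using QuotientGroup.induction_on with
        | _ x =>
        refine ⟨x, rfl, ?_⟩
        rw [← QuotientGroup.mk_pow, QuotientGroup.eq_one_iff] at hy
        exact hy
      choose f hf1 hf2 using key
      refine Nat.card_le_card_of_injective (fun q => ⟨f q ^ 2, hf2 q⟩) ?_
      intro a b hab
      have e : f a ^ 2 = f b ^ 2 := congrArg Subtype.val hab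
      have h4 : (f a) ^ 4 = 1 := by rw [show (4 : ℕ) = 2 * 2 from rfl, pow_mul]; exact hf2 a
      apply Subtype.ext
      rw [← hf1 a, ← hf1 b, QuotientGroup.eq]
      show ((f a)⁻¹ * f b) ^ 2 = 1
      rw [Commute.mul_pow ((Commute.inv_left (hD _ _ h4 : Commute (f a) (f b)))), inv_pow, e,
        inv_mul_cancel]
  · obtain ⟨w, hw, hwJ⟩ := Set.not_subset.mp hWJ
    obtain ⟨M, hMmax⟩ := (Set.toFinite {M : Subgroup D | J ≤ M ∧ w ∉ M}).exists_maximal
      ⟨J, le_rfl, hwJ⟩
    obtain ⟨⟨hJM, hwM⟩, hmax⟩ := hMmax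
    have hMsq : ∀ d : D, d ^ 2 ∈ M := fun d => hJM (hJ d)
    have hMn := normal_of_sq M hMsq
    have hidx : M.index = 2 := by
      rw [index_eq_two_iff]
      refine ⟨w, fun b => ?_⟩
      by_cases hb : b ∈ M
      · refine Or.inr ⟨hb, fun hbw => hwM ?_⟩
        simpa using mul_mem (inv_mem hb) hbw
      · refine Or.inl ⟨?_, hb⟩
        have hsup : w ∈ M ⊔ zpowers b := by
          by_contra hw'
          exact hb (hmax ⟨hJM.trans le_sup_left, hw'⟩ le_sup_left
            (le_sup_right (a := M) (mem_zpowers b)))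
        rw [← SetLike.mem_coe, normal_mul] at hsup
        obtain ⟨m, hm, z, hz, hmz⟩ := hsup
        obtain ⟨i, rfl⟩ := mem_zpowers_iff.mp hz
        rcases Int.even_or_odd' i with ⟨l, rfl | rfl⟩
        · exfalso
          refine hwM ?_
          rw [← hmz]
          refine mul_mem hm ?_
          show b ^ (2 * l) ∈ M
          rw [zpow_mul]
          exact zpow_mem (by exact_mod_cast hMsq b) l
        · have hb2 : b ^ (2 * l + 1 + 1) ∈ M := by
            rw [show 2 * l + 1 + 1 = 2 * (l + 1) by ring, zpow_mul]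
            exact zpow_mem (by exact_mod_cast hMsq b) _
          have hwb : w * b ∈ M := by
            rw [← hmz]
            show m * b ^ (2 * l + 1) * b ∈ M
            rw [mul_assoc, ← zpow_add_one]
            exact mul_mem hm hb2
          have hw4 : w ^ 4 = 1 := by
            rw [show (4 : ℕ) = 2 * 2 from rfl, pow_mul, (mem_involutionGroup hD).mp hw, one_pow]
          rwa [hD w b hw4] at hwb
    have hlt : Nat.card M < n := by
      have := card_mul_index M
      rw [hidx, hn] at this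
      have : 0 < Nat.card M := Nat.card_pos
      omega
    have hMD : FourCentral M := fun x g hx =>
      Subtype.ext (hD x.1 g.1 (by simpa using congrArg Subtype.val hx))
    have h := ih _ hlt M rfl (h2.to_subgroup M) hMD (J.subgroupOf M) (fun d => hJ d.1)
    have hrel : (J.subgroupOf M).index * 2 = J.index := by
      rw [← hidx]; exact relIndex_mul_index hJM
    rw [← hrel]
    refine le_trans (Nat.mul_le_mul_right 2 h) ?_
    rw [show Nat.card {x : M // x ^ 2 = 1} * 2 = Nat.card ({x : M // x ^ 2 = 1} × Bool) by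
      rw [Nat.card_prod]; simp]
    have hw2 : w ^ 2 = 1 := hw
    have hw4 : w ^ 4 = 1 := by rw [show (4 : ℕ) = 2 * 2 from rfl, pow_mul, hw2, one_pow]
    refine Nat.card_le_card_of_injective
      (fun p : {x : M // x ^ 2 = 1} × Bool => (⟨if p.2 then w * p.1.1.1 else p.1.1.1, by
        have hx : ((p.1.1 : M) : D) ^ 2 = 1 := by simpa using congrArg Subtype.val p.1.2
        split
        · rw [Commute.mul_pow (hD w _ hw4), hw2, hx, one_mul]
        · exact hx⟩ : {x : D // x ^ 2 = 1})) ?_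
    rintro ⟨⟨⟨a, ha⟩, _⟩, s⟩ ⟨⟨⟨b, hb'⟩, _⟩, t⟩ hab
    have e := congrArg Subtype.val hab
    rcases s <;> rcases t <;> simp at e
    · subst e; rfl
    · exact absurd (by rw [show w = a * b⁻¹ by rw [e]; group]; exact mul_mem ha (inv_mem hb')) hwM
    · exact absurd (by rw [show w = b * a⁻¹ by rw [← e]; group]; exact mul_mem hb' (inv_mem ha)) hwM
    · subst e; rfl

theorem sq_mem_of_isCoatom [Finite D] (h2 : IsPGroup 2 D) {M : Subgroup D} (hM : IsCoatom M)
    (d : D) : d ^ 2 ∈ M := by
  have : Fact (Nat.Prime 2) := ⟨Nat.prime_two⟩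
  have := h2.isNilpotent
  have : M.Normal := NormalizerCondition.normal_of_coatom M Group.normalizerCondition_of_isNilpotent hM
  by_contra hd
  have hnt : Nontrivial (D ⧸ M) :=
    ⟨(d ^ 2 : D), 1, fun e => hd ((QuotientGroup.eq_one_iff _).mp e)⟩
  obtain ⟨k, hk⟩ := IsPGroup.iff_card.mp (h2.to_quotient M)
  have hk1 : 2 ∣ Nat.card (D ⧸ M) := by
    rcases k with _ | k
    · have := Finite.one_lt_card (α := D ⧸ M)
      simp [hk] at this
    · exact ⟨2 ^ k, by rw [hk, pow_succ']⟩
  obtain ⟨t, ht⟩ := exists_prime_orderOf_dvd_card' 2 hk1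
  have htop : (zpowers t).comap (QuotientGroup.mk' M) = ⊤ := by
    refine hM.2 _ (lt_of_le_of_ne ?_ ?_)
    · intro m hm
      show (m : D ⧸ M) ∈ zpowers t
      rw [(QuotientGroup.eq_one_iff m).mpr hm]; exact one_mem _
    · intro e
      induction t using QuotientGroup.induction_on with
      | _ s =>
      have hs : s ∈ (zpowers (s : D ⧸ M)).comap (QuotientGroup.mk' M) := mem_zpowers _
      rw [← e] at hs
      rw [(QuotientGroup.eq_one_iff s).mpr hs, orderOf_one] at ht
      omega
  have hdt : (d : D ⧸ M) ∈ zpowers t := by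
    have : d ∈ (⊤ : Subgroup D) := mem_top d
    rw [← htop] at this
    exact this
  obtain ⟨i, hi⟩ := mem_zpowers_iff.mp hdt
  refine hd ((QuotientGroup.eq_one_iff _).mp ?_)
  rw [QuotientGroup.mk_pow, ← hi, ← zpow_natCast, ← zpow_mul, mul_comm, zpow_mul,
    zpow_natCast, ← ht, pow_orderOf_eq_one, one_zpow]

/-- A 2-group in which every subgroup containing all squares has index at most two is cyclic. -/
theorem exists_zpowers_eq_top [Finite D] (h2 : IsPGroup 2 D)
    (h : ∀ J : Subgroup D, (∀ d : D, d ^ 2 ∈ J) → J.index ≤ 2) :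
    ∃ c : D, zpowers c = ⊤ := by
  let S : Subgroup D := closure (Set.range fun d : D => d ^ 2)
  have hS : ∀ d : D, d ^ 2 ∈ S := fun d => subset_closure ⟨d, rfl⟩
  by_cases hbot : (⊤ : Subgroup D) = ⊥
  · exact ⟨1, by rw [hbot]; simp⟩
  obtain ⟨M, hM, -⟩ :=
    (IsCoatomic.eq_top_or_exists_le_coatom (⊥ : Subgroup D)).resolve_left (Ne.symm hbot)
  obtain ⟨c, -, hc⟩ := SetLike.exists_of_lt (lt_top_iff_ne_top.mpr hM.1)
  refine ⟨c, ?_⟩
  by_contra hne
  obtain ⟨M', hM', hle⟩ := (IsCoatomic.eq_top_or_exists_le_coatom (zpowers c)).resolve_left hne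
  have key : ∀ N : Subgroup D, IsCoatom N → N = S := by
    intro N hN
    have hSN : S ≤ N := by
      rw [closure_le]; rintro _ ⟨d, rfl⟩; exact sq_mem_of_isCoatom h2 hN d
    refine le_antisymm ?_ hSN
    by_contra hnot
    have hrel := relIndex_mul_index hSN
    have h1 : S.relIndex N ≠ 1 := fun e => hnot (relIndex_eq_one.mp e)
    have h2' : N.index ≠ 1 := fun e => hN.1 (index_eq_one.mp e)
    have h0 : S.relIndex N ≠ 0 := (S.subgroupOf N).index_ne_zero_of_finite
    have h3 : N.index ≠ 0 := index_ne_zero_of_finite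
    have := h S hS
    have h4 : 2 * 2 ≤ S.relIndex N * N.index := Nat.mul_le_mul (by omega) (by omega)
    omega
  exact hc ((key M hM).symm ▸ (key M' hM' ▸ hle (mem_zpowers c)))

end CfsgLib.FourGen42
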